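import Cfsg.Agent.H8.CoverSmall
import Cfsg.Agent.H8.LiftTabE6
import Cfsg.Agent.H8.LiftTabE7
import Cfsg.Agent.H8.LiftTabE8
import Cfsg.Agent.H8.NTables

/-! Perfectness and the lifting property for all tabulated types. -/

set_option autoImplicit false
set_option linter.unusedSectionVars false

namespace Cfsg.Agent.H8

open Cfsg.Lie Matrix Cfsg.Agent.H7
open scoped commutatorElement

variable {D : ChevalleyDatum} {K : Type*} [Field K] {G E : Type*} [Group G] [Group E] {x : ℕ → K → G}

theorem perfect_of_mem (hD : D ∈ [chevG2, chevB2, chevD4, chevF4, chevE6, chevE7, chevE8])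
    (hK : D ∈ [chevB2, chevG2] → ∃ x : K, x ≠ 0 ∧ x ≠ 1) (hx : IsSt D x) : GG x ≤ ⁅GG x, GG x⁆ := by
  simp only [List.mem_cons, List.not_mem_nil, or_false] at hD
  rcases hD with rfl | rfl | rfl | rfl | rfl | rfl | rfl
  · exact perfect_G2 hx (hK (by simp))
  · exact perfect_B2 hx (hK (by simp))
  · exact hx.perfect_of_small
  · exact hx.perfect_of_small
  · exact hx.perfect_of_rich
  · exact hx.perfect_of_rich
  · exact hx.perfect_of_rich

theorem exists_ne_of_large (hK : ∃ s : Finset K, 4 < s.card) : ∃ v : K, v ≠ 0 ∧ v ≠ 1 := by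
  obtain ⟨v, hv⟩ := exists_pow_ne_one hK (n := 1) le_rfl (by norm_num)
  exact ⟨v, v.ne_zero, fun h => hv (by ext; simpa using h)⟩

theorem lift_of_mem_large (hD : D ∈ [chevG2, chevB2, chevD4, chevF4, chevE6, chevE7, chevE8])
    (hK : ∃ s : Finset K, 4 < s.card) {π : E →* G} (hπ : Function.Surjective π) (hc : π.ker ≤ Subgroup.center E)
    (hx : IsSt D x) (hF : Faithful D x) : ∃ y' : ℕ → K → E, IsSt D y' ∧ ∀ k t, π (y' k t) = x k t := by
  simp only [List.mem_cons, List.not_mem_nil, or_false] at hD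
  rcases hD with rfl | rfl | rfl | rfl | rfl | rfl | rfl
  · exact lift_G2 hπ hc hx hF hK
  · exact lift_B2 hπ hc hx hF (exists_ne_of_large hK)
  · exact lift_of_small hπ hc hx hF (exists_ne_of_large hK)
  · exact lift_of_small hπ hc hx hF (exists_ne_of_large hK)
  · exact lift_of_rich hπ hc hx hF
  · exact lift_of_rich hπ hc hx hF
  · exact lift_of_rich hπ hc hx hF

end Cfsg.Agent.H8
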