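import Cfsg.Agent.L0.PcCert

/-! Central extensions obtained by transfer from a subgroup of odd index. -/

set_option autoImplicit false
set_option linter.unusedSectionVars false

namespace Cfsg.Agent.H8

open Cfsg.Agent.L0

universe u

theorem ev_even {A : Type*} [CommGroup A] {c : ℕ → A} (h2 : ∀ l, c l ^ 2 = 1) {w : List ℕ} (hw : ∀ l, Even (w.count l)) :
    L0.ev c w = 1 := by
  rw [L0.ev, Finset.prod_list_map_count]
  exact Finset.prod_eq_one fun l _ => by obtain ⟨k, e⟩ := hw l; rw [e, ← two_mul, pow_mul, h2, one_pow]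

theorem ev_lift {E G : Type*} [Group E] [Group G] {θ : E →* G} (hc : θ.ker ≤ Subgroup.center E) (h2 : ∀ z ∈ θ.ker, z ^ 2 = 1)
    {X X' : ℕ → E} (h : ∀ l, θ (X l) = θ (X' l)) {w : List ℕ} (hw : ∀ l, Even (w.count l)) : L0.ev X w = L0.ev X' w := by
  let := centerCG E
  have h1 : ∀ l, (X l)⁻¹ * X' l ∈ θ.ker := fun l => by simp [MonoidHom.mem_ker, h]
  have := ev_mul_central X (Subgroup.center E).subtype (fun a => a.2) (fun l => ⟨_, hc (h1 l)⟩) w
  rw [ev_even (fun l => Subtype.ext (h2 _ (h1 l))) hw] at this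
  simpa using this.symm

theorem lower_prod {G : Type u} [Group G] {A B : Type*} [CommGroup A] [CommGroup B] (hA : LowerMult G A) (hB : LowerMult G B)
    {m n : ℕ} (hm : ∀ a : A, a ^ m = a) (hm' : ∀ b : B, b ^ m = 1) (hn : ∀ a : A, a ^ n = 1) (hn' : ∀ b : B, b ^ n = b) :
    LowerMult G (A × B) := by
  obtain ⟨Γ, _, _, σ, h1, ⟨e⟩⟩ := hA
  obtain ⟨Γ', _, _, σ', h2, ⟨e'⟩⟩ := hB
  let P := (σ.comp (MonoidHom.fst Γ Γ')).eqLocus (σ'.comp (MonoidHom.snd Γ Γ'))
  let f : P →* Γ := (MonoidHom.fst Γ Γ').comp P.subtype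
  let f' : P →* Γ' := (MonoidHom.snd Γ Γ').comp P.subtype
  have hf : Function.Surjective f := fun a => let ⟨b, hb⟩ := h2.1 (σ a); ⟨⟨(a, b), hb.symm⟩, rfl⟩
  have hf' : Function.Surjective f' := fun b => let ⟨a, ha⟩ := h1.1 (σ' b); ⟨⟨(a, b), ha⟩, rfl⟩
  have hk : ∀ a : P, σ (f a) = σ' (f' a) := fun a => a.2
  have p1 : ∀ k l : ℕ, ∀ a ∈ σ.ker, (∀ c : A, c ^ k = c ^ l) → a ^ k = a ^ l := fun k l a ha h => by
    simpa using congrArg (fun c => (e.symm c : Γ)) (h (e ⟨a, ha⟩))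
  have p2 : ∀ k l : ℕ, ∀ a ∈ σ'.ker, (∀ c : B, c ^ k = c ^ l) → a ^ k = a ^ l := fun k l a ha h => by
    simpa using congrArg (fun c => (e'.symm c : Γ')) (h (e' ⟨a, ha⟩))
  refine lowerMult_of (σ.comp f) ⟨h1.1.comp hf, fun a ha => Subgroup.mem_center_iff.2 fun b => Subtype.ext (Prod.ext
    (Subgroup.mem_center_iff.1 (h1.2.1 ha) _) (Subgroup.mem_center_iff.1 (h2.2.1 ((hk a).symm.trans ha)) _)), fun a ha => ?_⟩
    (MulEquiv.trans (N := σ.ker × σ'.ker) ⟨⟨fun a => (⟨f a, a.2⟩, ⟨f' a, (hk a).symm.trans a.2⟩), fun a => ⟨⟨(a.1, a.2), a.1.2.trans a.2.2.symm⟩, a.1.2⟩,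
      fun _ => rfl, fun _ => rfl⟩, fun _ _ => rfl⟩ (e.prodCongr e'))
  have ha' : f' a ∈ σ'.ker := (hk a).symm.trans ha
  obtain ⟨b, hb, e1⟩ : f a ∈ (commutator P).map f := by
    rw [map_commutator_eq, MonoidHom.range_eq_top.2 hf]; exact h1.2.2 ha
  obtain ⟨c, hc, e2⟩ : f' a ∈ (commutator P).map f' := by
    rw [map_commutator_eq, MonoidHom.range_eq_top.2 hf']; exact h2.2.2 ha'
  have hb' : f' b ∈ σ'.ker := (hk b).symm.trans (e1 ▸ ha)
  have hc' : f c ∈ σ.ker := (hk c).trans (e2 ▸ ha')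
  have : a = b ^ m * c ^ n := Subtype.ext (Prod.ext (show f a = f (b ^ m * c ^ n) by
    rw [map_mul, map_pow, map_pow, e1, p1 m 1 _ ha (by simpa), p1 n 0 _ hc' (by simpa)]; simp)
    (show f' a = f' (b ^ m * c ^ n) by
      rw [map_mul, map_pow, map_pow, e2, p2 m 0 _ hb' (by simpa), p2 n 1 _ ha' (by simpa)]; simp))
  exact this ▸ mul_mem (pow_mem hb _) (pow_mem hc _)

variable {S E : Type u} [Group S] [Group E] {A : Type} [CommGroup A] {U : Subgroup S} {π : E →* S} {ι : A →* E}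

variable (U π) in
/-- The extension of `S` by the functions from the cosets of `U` to the kernel of `π`. -/
def Wr : Subgroup ((S ⧸ U → E) ⋊[mulAutArrow] S) where
  carrier := {a | ∀ x, π (a.left x) = x.out⁻¹ * a.right * (a.right⁻¹ • x).out}
  one_mem' x := by simp
  mul_mem' {a b} ha hb x := by
    have : (a * b).left x = a.left x * b.left (a.right⁻¹ • x) := rfl
    simp [this, ha x, hb (a.right⁻¹ • x), mul_smul, mul_assoc]
  inv_mem' {a} ha x := by
    have : a⁻¹.left x = (a.left (a.right⁻¹⁻¹ • x))⁻¹ := rfl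
    simp [this, ha _, mul_assoc]

variable (U π) in
/-- The projection. -/
def wrP : Wr U π →* S := SemidirectProduct.rightHom.comp (Wr U π).subtype

variable (U π ι) in
/-- A central extension of `U` with kernel of exponent two. -/
structure TrD : Prop where
  inj : Function.Injective ι
  ker : π.ker = ι.range
  cen : ∀ a g, g * ι a = ι a * g
  sq : ∀ a : A, a ^ 2 = 1
  range : π.range = U

namespace TrD

variable (H : TrD U π ι)
include H

theorem map (a : A) : π (ι a) = 1 := H.ker.ge ⟨a, rfl⟩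

/-- The kernel of the projection. -/
def kap : (S ⧸ U → A) →* Wr U π :=
  (SemidirectProduct.inl.comp (ι.compLeft _)).codRestrict _ fun k x => by simp [H.map]

theorem wrP_kap (k : S ⧸ U → A) : wrP U π (H.kap k) = 1 := rfl

theorem surj : Function.Surjective (wrP U π) := fun g => by
  choose f hf using fun x : S ⧸ U => show x.out⁻¹ * g * (g⁻¹ • x).out ∈ π.range by
    rw [H.range, mul_assoc, ← QuotientGroup.eq, ← smul_eq_mul, MulAction.Quotient.mk_smul_out]; simp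
  exact ⟨⟨⟨f, g⟩, hf⟩, rfl⟩

theorem exists_kap {a : Wr U π} (ha : wrP U π a = 1) : ∃ k, a = H.kap k := by
  have h1 : a.1.right = 1 := ha
  choose k hk using fun x => show a.1.left x ∈ ι.range by rw [← H.ker, MonoidHom.mem_ker, a.2 x, h1]; simp
  exact ⟨k, Subtype.ext (SemidirectProduct.ext (funext fun x => (hk x).symm) h1)⟩

theorem conj_kap (a : Wr U π) (k : S ⧸ U → A) : a * H.kap k * a⁻¹ = H.kap fun x => k ((wrP U π a)⁻¹ • x) := by
  rw [mul_inv_eq_iff_eq_mul]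
  refine Subtype.ext (SemidirectProduct.ext (funext fun x => ?_) ((mul_one _).trans (one_mul _).symm))
  change a.1.left x * ι _ = ι _ * a.1.left ((1 : S)⁻¹ • x)
  rw [H.cen, inv_one, one_smul]; rfl

theorem kap_inj : Function.Injective H.kap := fun _ _ e =>
  funext fun x => H.inj (congrArg (fun a : Wr U π => a.1.left x) e)

theorem exists_quot [Finite S] [Finite E] (T : Subgroup S) (Y : Finset (S ⧸ U)) (hY : ∀ t ∈ T, ∀ x ∈ Y, t • x ∈ Y) :
    ∃ (Γ : Type u) (_ : Group Γ) (_ : Finite Γ) (θ : Γ →* S) (q : T.comap (wrP U π) →* Γ), Function.Surjective q ∧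
      (∀ a, θ (q a) = wrP U π a) ∧ θ.ker ≤ Subgroup.center Γ ∧ (∀ z ∈ θ.ker, z ^ 2 = 1) ∧
      ∀ k k' h h', q ⟨H.kap k, h⟩ = q ⟨H.kap k', h'⟩ ↔ ∏ x ∈ Y, k x = ∏ x ∈ Y, k' x := by
  have : Finite ((S ⧸ U → E) ⋊[mulAutArrow] S) := Finite.of_equiv _ SemidirectProduct.equivProd.symm
  let d : (S ⧸ U → A) →* A := ∏ x ∈ Y, Pi.evalMonoidHom _ x
  have hd : ∀ k, d k = ∏ x ∈ Y, k x := fun k => by simp [d]
  have h1 : ∀ t ∈ T, ∀ k, (d fun x => k (t⁻¹ • x)) = d k := fun t ht k => by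
    rw [hd, hd]
    exact Finset.prod_nbij' (t⁻¹ • ·) (t • ·) (hY _ (inv_mem ht)) (hY _ ht) (by simp) (by simp) fun _ _ => rfl
  let N := (d.ker.map H.kap).subgroupOf (T.comap (wrP U π))
  have : N.Normal := ⟨by
    rintro ⟨_, h⟩ ⟨k, hk, rfl⟩ a
    exact ⟨_, (h1 _ a.2 k).trans hk, (H.conj_kap a k).symm⟩⟩
  have h2 : ∀ k k' h h', ((⟨H.kap k, h⟩ : T.comap (wrP U π)) : _ ⧸ N) = (⟨H.kap k', h'⟩ : T.comap (wrP U π)) ↔ d k = d k' :=
    fun k k' h h' => by
      rw [QuotientGroup.eq, ← inv_mul_eq_one, ← map_inv, ← map_mul]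
      change (H.kap k)⁻¹ * H.kap k' ∈ d.ker.map H.kap ↔ _
      rw [← map_inv, ← map_mul]
      exact Subgroup.mem_map_iff_mem H.kap_inj
  refine ⟨_ ⧸ N, _, inferInstance, QuotientGroup.lift N ((wrP U π).comp (Subgroup.subtype _)) (by
    rintro ⟨_, h⟩ ⟨k, -, rfl⟩; rfl), QuotientGroup.mk' N, QuotientGroup.mk'_surjective N, fun _ => rfl, fun z hz => ?_,
    fun z hz => ?_, fun k k' h h' => hd k ▸ hd k' ▸ h2 k k' h h'⟩
  all_goals
    obtain ⟨⟨z, h⟩, rfl⟩ := QuotientGroup.mk_surjective z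
    obtain ⟨k, rfl⟩ := H.exists_kap (a := z) hz
  · refine Subgroup.mem_center_iff.2 fun a => ?_
    obtain ⟨a, rfl⟩ := QuotientGroup.mk_surjective a
    rw [← mul_inv_eq_iff_eq_mul]
    exact Eq.trans (congrArg (QuotientGroup.mk (s := N)) (Subtype.ext (H.conj_kap a k) : a * ⟨_, h⟩ * a⁻¹ = _))
      ((h2 _ _ (one_mem T) h).2 (h1 _ a.2 k))
  · exact congrArg (QuotientGroup.mk (s := N)) (Subtype.ext (show H.kap k ^ 2 = 1 by
      rw [← map_pow, show k ^ 2 = 1 from funext fun x => H.sq _, map_one]) : _ ^ 2 = (1 : T.comap (wrP U π)))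

omit H in
theorem ev_left {a : ℕ → Wr U π} {x : S ⧸ U} (h : ∀ l, (wrP U π (a l))⁻¹ • x = x) (w : List ℕ) :
    (L0.ev a w).1.left x = L0.ev (fun l => (a l).1.left x) w := by
  induction w with
  | nil => rfl
  | cons l w ih => rw [L0.ev_cons, L0.ev_cons, ← ih, ← congrArg (L0.ev a w).1.left (h l)]; rfl

theorem lower [Finite S] [Finite E] (hU : Odd U.index) (hS : commutator S = ⊤) (g : ℕ → S) (u : S) (V : ℕ → List ℕ)
    (hV : ∀ l, u * g l * u⁻¹ = L0.ev g (V l)) (hu : u * u ∈ Subgroup.closure (Set.range g)) (s : Set A)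
    (hs : Subgroup.closure s = ⊤) (hz : ∀ z ∈ s, ∃ w : List ℕ, (∀ l, Even (w.count l)) ∧ L0.ev g w = 1 ∧
      (∀ (Γ : Type u) [Group Γ] (θ : Γ →* S) (X : ℕ → Γ), θ.ker ≤ Subgroup.center Γ → (∀ z ∈ θ.ker, z ^ 2 = 1) →
        (∀ l, θ (X l) = g l) → L0.ev X w = L0.ev X (w.flatMap V)) ∧
      ∀ y, ∀ t ∈ Subgroup.closure (Set.range g), y⁻¹ * (u * t) * y ∈ U → (∀ l, y⁻¹ * g l * y ∈ U) ∧
        ∀ X : ℕ → E, (∀ l, π (X l) = y⁻¹ * g l * y) → L0.ev X w = ι z) : LowerMult S A := by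
  classical
  have := Fintype.ofFinite (S ⧸ U)
  obtain ⟨Γ, _, _, θ, q, q1, q2, q3, q4, q5⟩ := H.exists_quot ⊤ Finset.univ (by simp)
  let j : A →* Γ := q.comp ((H.kap.comp (MonoidHom.mulSingle _ ((1 : S) : S ⧸ U))).codRestrict _ fun _ => trivial)
  have j1 : ∀ k, q ⟨H.kap k, trivial⟩ = j (∏ x, k x) := fun k => (q5 _ _ _ _).2 (Fintype.prod_pi_mulSingle' _ _).symm
  have j2 : ∀ z ∈ θ.ker, ∃ a, j a = z := fun z hz => by
    obtain ⟨⟨z, h⟩, rfl⟩ := q1 z
    obtain ⟨k, rfl⟩ := H.exists_kap ((q2 _).symm.trans hz)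
    exact ⟨_, (j1 k).symm⟩
  have hθ : Function.Surjective θ := fun a => let ⟨b, hb⟩ := H.surj a; ⟨q ⟨b, trivial⟩, (q2 _).trans hb⟩
  refine lowerMult_of θ ⟨hθ, q3, fun z hz' => ?_⟩ (MulEquiv.ofBijective (j.codRestrict θ.ker fun a => q2 _)
    ⟨fun a b e => by simpa using (q5 _ _ _ _).1 (congrArg Subtype.val e),
      fun z => (j2 _ z.2).imp fun _ e => Subtype.ext e⟩).symm
  obtain ⟨z, rfl⟩ := j2 z hz'
  refine ((Subgroup.closure_le ((commutator Γ).comap j)).2 fun z hz' => ?_) (hs ▸ Subgroup.mem_top z)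
  obtain ⟨w, w1, w2, w3, w4⟩ := hz z hz'
  set T := Subgroup.closure (Set.range g)
  have hg : ∀ l, g l ∈ T := fun l => Subgroup.subset_closure ⟨l, rfl⟩
  have hT : ∀ t ∈ T, u⁻¹ * t * u ∈ T := fun t ht => by
    simpa using (Subgroup.mem_normalizer_iff.1 (inv_mem (Subgroup.mem_normalizer_fintype (S := (T : Set S)) (x := u)
      fun t ht => (Subgroup.closure_le (T.comap (MulAut.conj u).toMonoidHom)).2 (by
        rintro _ ⟨l, rfl⟩; exact T.mem_carrier.1 ((hV l).symm ▸ L0.ev_mem g T fun l _ => hg l : u * g l * u⁻¹ ∈ T)) ht)) t).1 ht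
  choose a ha using fun l => H.surj (g l)
  obtain ⟨b, hb⟩ := H.surj u
  obtain ⟨k, hk⟩ := H.exists_kap (a := L0.ev a w) (by simp only [L0.map_ev, ha, w2])
  have key : ∀ Y : Finset (S ⧸ U), (∀ t ∈ T, ∀ x ∈ Y, t • x ∈ Y) → ∏ x ∈ Y, k (u⁻¹ • x) = ∏ x ∈ Y, k x := fun Y hY => by
    obtain ⟨Γ, _, _, θ, q, -, q2, q3, q4, q5⟩ := H.exists_quot T Y hY
    let a' : ℕ → T.comap (wrP U π) := fun l => ⟨a l, Subgroup.mem_comap.2 ((ha l).symm ▸ hg l)⟩
    let a'' : ℕ → T.comap (wrP U π) := fun l => ⟨b * a l * b⁻¹, by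
      simp only [Subgroup.mem_comap, map_mul, map_inv, ha, hb, hV]; exact L0.ev_mem g T fun l _ => hg l⟩
    have h1 := w3 Γ θ (fun l => q (a' l)) q3 q4 fun l => (q2 _).trans (ha l)
    rw [L0.ev_flatMap, ev_lift q3 q4 (X := fun _ => L0.ev _ _) (X' := fun l => q (a'' l)) (fun l => by
      simp only [L0.map_ev, q2, a', a'', map_mul, map_inv, ha, hb, hV]) w1, ← L0.map_ev, ← L0.map_ev] at h1
    refine (q5 _ _ (one_mem T) (one_mem T)).1 (Eq.trans ?_ (h1.symm.trans ?_)) <;> refine congrArg q (Subtype.ext ?_)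
    · change H.kap _ = _
      rw [← hb, ← H.conj_kap, ← hk]
      exact (L0.map_ev a (MulAut.conj b) w).trans (L0.map_ev a'' (Subgroup.subtype _) w).symm
    · exact (L0.map_ev _ (Subgroup.subtype _) w).trans hk
  obtain ⟨e, he⟩ := exists_injective_nat (MulAction.orbitRel.Quotient T (S ⧸ U))
  let φ : S ⧸ U → ℕ := fun x => e (Quotient.mk _ x)
  have φ1 : ∀ t ∈ T, ∀ x, φ (t • x) = φ x := fun t ht x => congrArg e (Quotient.sound ⟨⟨t, ht⟩, rfl⟩)
  have φ2 : ∀ x, φ (u⁻¹ • u⁻¹ • x) = φ x := fun x => by rw [smul_smul, ← mul_inv_rev, φ1 _ (inv_mem hu)]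
  have φ3 : ∀ t ∈ T, ∀ x, φ (u⁻¹ • t • x) = φ (u⁻¹ • x) := fun t ht x => by
    rw [← φ1 _ (hT t ht) (u⁻¹ • x)]; simp [smul_smul]
  have h1 : ∀ {M : Type} [CommMonoid M] (f : S ⧸ U → M), ∏ x, f x = (∏ x with φ (u⁻¹ • x) = φ x, f x) *
      ((∏ x with φ x < φ (u⁻¹ • x), f x) * ∏ x with φ x < φ (u⁻¹ • x), f (u⁻¹ • x)) := fun f => by
    rw [← Finset.prod_filter_mul_prod_filter_not _ fun x => φ (u⁻¹ • x) = φ x, ← Finset.prod_filter_mul_prod_filter_not
      (Finset.univ.filter fun x => ¬ φ (u⁻¹ • x) = φ x) fun x => φ x < φ (u⁻¹ • x), Finset.filter_filter, Finset.filter_filter]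
    congr 2
    · exact Finset.prod_congr (Finset.filter_congr fun x _ => by omega) fun _ _ => rfl
    · refine (Finset.prod_nbij' (u⁻¹ • ·) (u • ·) (fun x => ?_) (fun x => ?_) (by simp) (by simp) fun _ _ => rfl).symm
      · simp only [Finset.mem_filter, φ2, Finset.mem_univ, true_and]; omega
      · have := φ2 (u • x)
        simp only [Finset.mem_filter, inv_smul_smul, Finset.mem_univ, true_and] at this ⊢; omega
  have h2 : Odd (Finset.univ.filter fun x => φ (u⁻¹ • x) = φ x).card := by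
    have := h1 fun _ => Multiplicative.ofAdd 1
    simp only [Finset.prod_const, ← ofAdd_nsmul, ← ofAdd_add, EmbeddingLike.apply_eq_iff_eq, smul_eq_mul, mul_one,
      Finset.card_univ] at this
    rw [Subgroup.index, Nat.card_eq_fintype_card, this] at hU
    exact (Nat.odd_add.1 hU).2 ⟨_, rfl⟩
  have h3 : ∏ x, k x = z := by
    rw [h1, key _ (fun t ht x => by simp [φ1 t ht, φ3 t ht]), ← pow_two, H.sq, mul_one,
      Finset.prod_eq_pow_card (b := z) fun x hx => ?_]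
    · obtain ⟨m, e⟩ := h2
      rw [e, pow_succ, pow_mul, H.sq, one_pow, one_mul]
    obtain ⟨t, ht⟩ := Quotient.exact (he (Finset.mem_filter.1 hx).2)
    obtain ⟨h3, h4⟩ := w4 x.out t t.2 (by
      rw [mul_assoc, ← QuotientGroup.eq, ← smul_eq_mul, MulAction.Quotient.mk_smul_out, QuotientGroup.out_eq', mul_smul]
      exact inv_smul_eq_iff.1 ht.symm)
    have h5 : ∀ l, (wrP U π (a l))⁻¹ • x = x := fun l => by
      rw [ha, inv_smul_eq_iff, ← MulAction.Quotient.mk_smul_out]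
      nth_rewrite 1 [← x.out_eq']
      exact QuotientGroup.eq.2 (by simpa [mul_assoc] using h3 l)
    refine H.inj ((congrArg (fun a : Wr U π => a.1.left x) hk).symm.trans ((ev_left h5 w).trans (h4 _ fun l => ?_)))
    rw [(a l).2 x]
    exact congrArg₂ _ (congrArg _ (ha l)) (congrArg _ (h5 l))
  have h4 : ∀ c : Abelianization Γ, c ^ 2 = 1 := fun c => by
    obtain ⟨c, rfl⟩ := QuotientGroup.mk_surjective c
    obtain ⟨d, hd, e⟩ : θ c ∈ (commutator Γ).map θ := by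
      rw [map_commutator_eq, MonoidHom.range_eq_top.2 hθ]; exact hS.ge trivial
    have := congrArg Abelianization.of (q4 (d⁻¹ * c) (by simp [MonoidHom.mem_ker, e]))
    rwa [map_pow, map_mul, map_inv, (Abelianization.ker_of Γ).ge hd, inv_one, one_mul] at this
  change j z ∈ commutator Γ
  rw [← h3, ← j1, ← Abelianization.ker_of, MonoidHom.mem_ker, show (⟨H.kap k, trivial⟩ : (⊤ : Subgroup S).comap (wrP U π)) =
    L0.ev (fun l => ⟨a l, trivial⟩) w from Subtype.ext (hk.symm.trans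
      (L0.map_ev (fun l => ⟨a l, trivial⟩) ((⊤ : Subgroup S).comap (wrP U π)).subtype w).symm),
    L0.map_ev, L0.map_ev, ev_even (fun _ => h4 _) w1]

end TrD

theorem exists_trD [Finite S] {R : Type} [Group R] [Finite R] [Finite A] {g : ℕ → S} {ρ : ℕ → R} {j : A →* R}
    (hj : Function.Injective j) (sq : ∀ a : A, a ^ 2 = 1) (hc : ∀ a i, Commute (ρ i) (j a)) {n : ℕ} {W : ℕ → ℕ → List ℕ}
    (hW : ∀ i k, i ≤ k → k < n → ∀ y ∈ W i k, i < y ∧ y < n)
    (h1 : ∀ i k, i < k → k < n → g k * g i = g i * L0.ev g (W i k) ∧ ∃ a, ρ k * ρ i = ρ i * L0.ev ρ (W i k) * j a)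
    (h2 : ∀ i < n, g i ^ 2 = L0.ev g (W i i) ∧ ρ i ^ 2 = L0.ev ρ (W i i))
    (hn : 2 ^ n ≤ Nat.card (Subgroup.closure (g '' {y | y < n}))) :
    ∃ (E : Type u) (_ : Group E) (_ : Finite E) (π : E →* S) (ι : A →* E) (Y : ℕ → E),
      TrD (Subgroup.closure (g '' {y | y < n})) π ι ∧ (∀ i < n, π (Y i) = g i) ∧
      ∀ w a, (∀ y ∈ w, y < n) → L0.ev g w = 1 → L0.ev ρ w = j a → L0.ev Y w = ι a := by
  let y : ℕ → S × R := fun i => if i < n then (g i, ρ i) else 1
  let κ : A →* S × R := (MonoidHom.inr S R).comp j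
  let E := Subgroup.closure (Set.range y ∪ Set.range κ)
  let Y : ℕ → E := fun i => ⟨y i, Subgroup.subset_closure (Or.inl ⟨i, rfl⟩)⟩
  let ι : A →* E := κ.codRestrict _ fun a => Subgroup.subset_closure (Or.inr ⟨a, rfl⟩)
  let π : E →* S := (MonoidHom.fst S R).comp E.subtype
  have hY : ∀ w, (∀ y ∈ w, y < n) → (L0.ev Y w).1 = (L0.ev g w, L0.ev ρ w) := fun w hw =>
    (L0.map_ev _ E.subtype w).trans (Prod.ext ((L0.map_ev _ (MonoidHom.fst S R) w).trans (L0.ev_congr fun i hi => by simp [Y, y, hw i hi]))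
      ((L0.map_ev _ (MonoidHom.snd S R) w).trans (L0.ev_congr fun i hi => by simp [Y, y, hw i hi])))
  have hπ : ∀ i < n, π (Y i) = g i := fun i hi => by simp [π, Y, y, hi]
  have cen : ∀ a e, e * ι a = ι a * e := fun a e => Subtype.ext ((Subgroup.closure_le (Subgroup.centralizer {κ a})).2 (by
    rintro _ (⟨i, rfl⟩ | ⟨b, rfl⟩) _ rfl
    · simp only [y]
      split_ifs
      exacts [Prod.ext (by simp [κ]) (hc a i).symm, by simp]
    · rw [← map_mul, ← map_mul, mul_comm]) e.2 _ rfl).symm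
  have : ι.range.Normal := ⟨by rintro _ ⟨a, rfl⟩ e; rw [cen, mul_inv_cancel_right]; exact ⟨a, rfl⟩⟩
  have h3 : ι.range ≤ π.ker := by rintro _ ⟨a, rfl⟩; rfl
  let q := QuotientGroup.mk' ι.range
  have h4 : ∀ i k, i ≤ k → k < n → q (L0.ev Y (W i k)) ∈ Subgroup.closure ((fun i => q (Y i)) '' {y | i < y ∧ y < n}) :=
    fun i k a b => L0.map_ev Y q _ ▸ L0.ev_mem _ _ fun y hy => Subgroup.subset_closure ⟨y, hW i k a b y hy, rfl⟩
  have h5 := card_pc_le (fun i => q (Y i)) (n := n) two_pos (fun i k a b => by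
      obtain ⟨e, c, e'⟩ := h1 i k a b
      have : Y k * Y i = Y i * L0.ev Y (W i k) * ι c := Subtype.ext (by
        simp only [Subgroup.coe_mul, hY _ fun y hy => (hW i k a.le b y hy).2]
        simp [Y, y, ι, κ, b, a.trans b, e, e'])
      rw [mul_assoc, ← map_mul, this, map_mul, map_mul, show q (ι c) = 1 from (QuotientGroup.eq_one_iff _).2 ⟨c, rfl⟩, mul_one,
        inv_mul_cancel_left]
      exact h4 i k a.le b) fun i a => by
    have : Y i ^ 2 = L0.ev Y (W i i) := Subtype.ext (by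
      simp only [Subgroup.coe_pow, hY _ fun y hy => (hW i i le_rfl a y hy).2]
      simp [Y, y, a, h2 i a])
    rw [← map_pow, this]
    exact h4 i i le_rfl a
  have h6 : ∀ (H : Type u) [Group H] (f : E →* H) (B : Subgroup H), (∀ a, f (ι a) = 1) → (∀ i < n, f (Y i) ∈ B) → ∀ e, f e ∈ B :=
    fun H _ f B a b ⟨e, he⟩ => by
      induction he using Subgroup.closure_induction with
      | mem e he =>
        obtain ⟨i, rfl⟩ | ⟨c, rfl⟩ := he
        · by_cases hi : i < n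
          exacts [b i hi, by simpa only [y, if_neg hi] using (map_one f).symm ▸ one_mem B]
        · exact (a c).symm ▸ one_mem B
      | one => exact (map_one f).symm ▸ one_mem B
      | mul _ _ _ _ c d => simpa only [← map_mul] using! mul_mem c d
      | inv _ _ c => simpa only [← map_inv] using! inv_mem c
  have h7 : π.range = Subgroup.closure (g '' {y | y < n}) := le_antisymm (by
    rintro _ ⟨e, rfl⟩; exact h6 _ π _ (fun _ => rfl) (fun i hi => Subgroup.subset_closure (by exact ⟨i, hi, (hπ i hi).symm⟩)) e)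
    ((Subgroup.closure_le _).2 (by rintro _ ⟨i, hi, rfl⟩; exact ⟨_, hπ i hi⟩))
  refine ⟨E, _, inferInstance, π, ι, Y, ⟨fun a b e => hj (congrArg (fun e : E => e.1.2) e), (Subgroup.eq_of_le_of_card_ge h3 ?_).symm,
    cen, sq, h7⟩, hπ, fun w a b c d => Subtype.ext ((hY w b).trans (Prod.ext c d))⟩
  rw [show Subgroup.closure _ = ⊤ from eq_top_iff.2 fun e _ => by
    obtain ⟨e, rfl⟩ := QuotientGroup.mk'_surjective _ e
    exact h6 _ q _ (fun a => (QuotientGroup.eq_one_iff _).2 ⟨a, rfl⟩) (fun i hi => Subgroup.subset_closure (by exact ⟨i, hi, rfl⟩)) e,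
    Subgroup.card_top] at h5
  refine Nat.le_of_mul_le_mul_left (c := ι.range.index) ?_ (Nat.pos_of_ne_zero Subgroup.index_ne_zero_of_finite)
  rw [Subgroup.index_mul_card, ← π.ker.index_mul_card, Subgroup.index_ker, h7]
  exact Nat.mul_le_mul_right _ (h5.trans hn)

end Cfsg.Agent.H8
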