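import Cfsg.Agent.H8.TwME6
import Cfsg.Agent.H8.TwX
import Cfsg.Agent.H8.Trans

/-! The odd part of the Schur multiplier of the twisted group of type `E6` over the field with four elements. -/

set_option autoImplicit false
set_option linter.unusedSectionVars false

namespace Cfsg.Agent.H8

open Cfsg.Lie Matrix Cfsg.Agent.H7
open scoped commutatorElement

universe u

variable {K : Type u} [Field K] {G : Type u} [Group G] {x : ℕ → K → G} {q : ℕ} {φ : K →+* K} {σ : G →* G}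

local notation "𝐧 " k:max => (⟨k, by decide⟩ : Fin chevE6.rank)

set_option synthInstance.maxSize 2000 in
theorem upper_E6_of_pk [Fintype K] (hφ : ∀ t, φ t = t ^ q)
    (h : TwD chevE6 x σ rhoE6 pfE6 (twF H7.twE6 φ) (twS x (e6Words K q)) (fun i => {j | j ∈ oLE6 i}) (fun _ => q) (zE6 x q))
    {p : ℕ} [Fact p.Prime] [CharP K p] {Γ : Type u} [Group Γ] [Finite Γ] {τ : Γ →* twS x (e6Words K q)} (hτ : IsStemExtension τ)
    (ht : ∀ z ∈ τ.ker, z ^ p = 1 → z = 1) :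
    ∃ π : Multiplicative (ZMod (Nat.gcd 3 (q + 1))) →* τ.ker, Function.Surjective π := by
  have hx := h.st
  have h3 : ((twS x (e6Words K q)).subtype.comp τ).ker = τ.ker := by ext; simp
  have h1 : PK p ((twS x (e6Words K q)).subtype.comp τ) := ⟨h3 ▸ hτ.2.1, fun z hz => ht z (h3.le hz)⟩
  have h2 : ((twS x (e6Words K q)).subtype.comp τ).range = twS x (e6Words K q) := by
    rw [MonoidHom.range_comp, MonoidHom.range_eq_top.2 hτ.1, ← MonoidHom.range_eq_map, Subgroup.range_subtype]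
  obtain ⟨H1, m1, e1, s1⟩ := exists_tor_one h h1 h2 (i := 𝐧 1) hφ rfl
  obtain ⟨H3, m3, e3, s3⟩ := exists_tor_one h h1 h2 (i := 𝐧 3) hφ rfl
  obtain ⟨H0, m0, e0, s0⟩ := exists_tor h h1 h2 (i := (𝐧 0)) (RingHom.id K) [(56, RingHom.id K), (36, φ)]
    (by simp only [List.map]; decide +kernel) (by simp only [Set.mem_ofPred_eq]; decide +kernel) (by simp only [List.map]; decide +kernel)
    (fun t => by simpa [hφ] using mem_e6b (r := 56) (s := 36) (by simp) t)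
    (fun t => by simpa [hφ, show chevE6.neg 56 = 15 from rfl, show chevE6.neg 36 = 35 from rfl]
      using mem_e6b (r := 15) (s := 35) (by simp) t)
    (fun t => by simpa [show chevE6.simple 0 = 56 from rfl] using co_e6 hx (r := 56) (s := 36) (by decide +kernel) t _ (𝐧 0))
    (fun _ _ t _ => ⟨t, rfl⟩) (nrep_wJ _ (R := [56, 36]) [0, 5] (by decide +kernel))
  obtain ⟨H2, m2, e2, s2⟩ := exists_tor h h1 h2 (i := (𝐧 2)) (RingHom.id K) [(42, RingHom.id K), (37, φ)]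
    (by simp only [List.map]; decide +kernel) (by simp only [Set.mem_ofPred_eq]; decide +kernel) (by simp only [List.map]; decide +kernel)
    (fun t => by simpa [hφ] using mem_e6b (r := 42) (s := 37) (by simp) t)
    (fun t => by simpa [hφ, show chevE6.neg 42 = 29 from rfl, show chevE6.neg 37 = 34 from rfl]
      using mem_e6b (r := 29) (s := 34) (by simp) t)
    (fun t => by simpa [show chevE6.simple 2 = 42 from rfl] using co_e6 hx (r := 42) (s := 37) (by decide +kernel) t _ (𝐧 2))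
    (fun _ _ t _ => ⟨t, rfl⟩) (nrep_wJ _ (R := [42, 37]) [2, 4] (by decide +kernel))
  have key : ∀ z ∈ τ.ker, ∃ ζ : Kˣ, ζ ^ 3 = 1 ∧ ζ ^ (q + 1) = 1 ∧ z = H0 ζ * H2 (ζ ^ 2 : Kˣ) := fun z hz => by
    obtain ⟨_, _ | ⟨a0, _ | ⟨a2, _ | ⟨a1, _ | ⟨a3, _ | _⟩⟩⟩⟩, rfl⟩ := exists_prod h h1 h2 (h3 ▸ hτ.2.2)
      [𝐧 0, 𝐧 2, 𝐧 1, 𝐧 3] (fun i => let ⟨j, hj, e⟩ := (by decide +kernel : ∀ i : Fin chevE6.rank,
        ∃ j ∈ [𝐧 0, 𝐧 2, 𝐧 1, 𝐧 3], oLE6 i = oLE6 j) i; ⟨j, hj, by rw [e]⟩) (h3.ge hz)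
    obtain ⟨t0, n0, rfl⟩ := s0 _ a0
    obtain ⟨t1, n1, rfl⟩ := s1 _ a1
    obtain ⟨t2, n2, rfl⟩ := s2 _ a2
    obtain ⟨t3, n3, rfl⟩ := s3 _ a3
    let a : Fin 6 → Kˣ := ![.mk0 t0 n0, .mk0 t1 (by simpa using n1), .mk0 t2 n2, .mk0 t3 (by simpa using n3),
      .mk0 (φ t2) (by simpa using n2), .mk0 (φ t0) (by simpa using n0)]
    obtain ⟨b0, b1, b2, b3, -, b5⟩ := zker_E6 (mem_zker_of h (a := a) (by
      have : (twS x (e6Words K q)).subtype.comp τ _ = 1 := h3.ge hz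
      refine (hProd_E6 hx hx.R3_of_finite a).trans (Eq.trans ?_ this)
      simp only [List.prod_cons, List.prod_nil, map_mul, e0, e1, e2, e3, List.map, mul_one]; rfl))
    obtain rfl : t1 = 1 := Subtype.ext (congrArg Units.val b1)
    obtain rfl : t3 = 1 := Subtype.ext (congrArg Units.val b3)
    refine ⟨a 0, b0, by rw [pow_succ, show a 0 ^ q = a 5 from Units.ext (hφ _).symm, b5, ← pow_succ, b0], ?_⟩
    have c1 : H1 1 = 1 := by simpa using m1 1 one_ne_zero 1 one_ne_zero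
    have c3 : H3 1 = 1 := by simpa using m3 1 one_ne_zero 1 one_ne_zero
    rw [← b2]; simp [c1, c3, a]
  have c0 : H0 1 = 1 := by simpa using m0 1 one_ne_zero 1 one_ne_zero
  have c2 : H2 1 = 1 := by simpa using m2 1 one_ne_zero 1 one_ne_zero
  by_cases hk : ∀ z ∈ τ.ker, z = 1
  · exact ⟨1, fun z => ⟨1, Subtype.ext (hk z z.2).symm⟩⟩
  push Not at hk
  obtain ⟨z, hz, hne⟩ := hk
  obtain ⟨ζ, a1, a2, rfl⟩ := key z hz
  have h4 : ∀ k, H0 (ζ ^ k : Kˣ) * H2 ((ζ ^ k) ^ 2 : Kˣ) = (H0 ζ * H2 (ζ ^ 2 : Kˣ)) ^ k := fun k => by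
    induction k with
    | zero => simp [c0, c2]
    | succ k ih =>
      rw [pow_succ' (_ * _), ← ih, ← mul_assoc, ← Subgroup.mem_center_iff.1 (hτ.2.1 hz), pow_succ ζ, mul_comm (ζ ^ k), mul_pow,
        mul_comm ζ, Units.val_mul, Units.val_mul, m0 _ (Units.ne_zero _) _ (Units.ne_zero _),
        m2 _ (Units.ne_zero _) _ (Units.ne_zero _)]
      group
  have h5 : IsPrimitiveRoot ζ 3 := orderOf_eq_prime a1 (fun e => hne (by simp [e, c0, c2])) ▸ IsPrimitiveRoot.orderOf ζ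
  refine ⟨L0.zmodHom _ ⟨_, hz⟩ (Subtype.ext (by
    rw [SubgroupClass.coe_pow, ← h4, pow_gcd_eq_one.2 ⟨a1, a2⟩]; simp [c0, c2])), fun ⟨z, hz'⟩ => ?_⟩
  obtain ⟨ζ', b1, -, rfl⟩ := key z hz'
  obtain ⟨k, -, rfl⟩ := h5.eq_pow_of_mem_rootsOfUnity (ξ := ζ') b1
  exact ⟨_, (L0.zmodHom_intCast _ _ _ k).trans (Subtype.ext (by simpa using (h4 k).symm))⟩

theorem pmult_odd_E6 [Fintype K] [CharP K 2] (hφ : ∀ t, φ t = t ^ 2)
    (h : TwD chevE6 x σ rhoE6 pfE6 (twF H7.twE6 φ) (twS x (e6Words K 2)) (fun i => {j | j ∈ oLE6 i}) (fun _ => 2) (zE6 x 2)) :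
    L0.PMult (twS x (e6Words K 2)) 3 1 1 ∧ ∀ p : ℕ, p.Prime → p ≠ 2 → p ≠ 3 → L0.PMult (twS x (e6Words K 2)) p 0 0 := by
  have key : ∀ p : ℕ, p.Prime → p ≠ 2 → ∀ k, ∀ (Γ : Type u) [Group Γ] [Finite Γ] (τ : Γ →* twS x (e6Words K 2)),
      IsStemExtension τ → (∀ a ∈ τ.ker, a ^ p ^ k = 1) → ∃ π : Multiplicative (ZMod 3) →* τ.ker, Function.Surjective π :=
    fun p hp h2 k Γ _ _ τ hτ h3 => upper_E6_of_pk (p := 2) hφ h hτ fun z hz h4 => by
      rw [← pow_one z, ← ((Nat.coprime_primes Nat.prime_two hp).2 h2.symm).pow_right k, pow_gcd_eq_one]; exact ⟨h4, h3 z hz⟩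
  have h3 : ∀ a : Multiplicative (ZMod 3), a ^ 3 = 1 ∧ ∃ k < 3, a = Multiplicative.ofAdd 1 ^ k := by decide
  refine ⟨fun Γ _ _ τ hτ h1 => ?_, fun p hp h1 h2 Γ _ _ τ hτ h4 => ⟨1, by simp, fun a ha => ?_⟩⟩
  · obtain ⟨π, hπ⟩ := key 3 Nat.prime_three (by decide) _ Γ τ hτ h1
    refine ⟨fun _ => π (.ofAdd 1), fun _ => ⟨(π _).2, by simp [← Subgroup.coe_pow, ← map_pow, (h3 _).1]⟩, fun a ha => ?_⟩
    obtain ⟨b, hb⟩ := hπ ⟨a, ha⟩
    obtain ⟨k, -, rfl⟩ := (h3 b).2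
    obtain rfl : a = (π (.ofAdd 1)).1 ^ k := by rw [← Subgroup.coe_pow, ← map_pow, hb]
    exact pow_mem (Subgroup.subset_closure (by exact ⟨0, Nat.zero_lt_one, rfl⟩)) k
  · obtain ⟨π, hπ⟩ := key p hp h1 _ Γ τ hτ h4
    obtain ⟨b, hb⟩ := hπ ⟨a, ha⟩
    rw [← pow_one a, ← (Nat.coprime_primes Nat.prime_three hp).2 h2.symm, pow_gcd_eq_one.2
      ⟨by rw [show a = _ from congrArg Subtype.val hb.symm, ← Subgroup.coe_pow, ← map_pow, (h3 _).1]; simp, by simpa using h4 a ha⟩]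
    exact one_mem _

theorem perfect_E62 [Fintype K] [CharP K 2] (hx : IsSt chevE6 x) (hF : Fintype.card K = 4) (hφ : ∀ t, φ t = t ^ 2) :
    twS x (e6Words K 2) ≤ ⁅twS x (e6Words K 2), twS x (e6Words K 2)⁆ := by
  have h0 : ∀ a : ℕ × ℕ × ℕ, a ∈ [(46, 39, 47), (25, 32, 24), (47, 32, 46), (47, 25, 39), (24, 39, 25), (24, 46, 32)] →
      x a.2.2 1 = ⁅x a.1 1, x a.2.1 1⁆ := fun a ha => by
    simpa [commutatorElement_def, ← hx.neg, mev, mul_assoc, CharTwo.neg_eq] using hx.eq_of_weq agrE6 (p := 2) (CharP.cast_eq_zero K 2)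
      (fun _ => 0) (key := id) (w := [(a.2.2, [(1, [])])])
      (w' := [(a.1, [(1, [])]), (a.2.1, [(1, [])]), (a.1, [(1, [])]), (a.2.1, [(1, [])])]) (by revert a; decide +kernel)
  have h1 : ∀ r ∈ [46, 25, 39, 32], x r 1 ∈ twS x (e6Words K 2) := fun r hr => mem_e6a hr (one_pow _)
  have h2 : ∀ r ∈ [47, 24], x r 1 ∈ twS x (e6Words K 2) := by
    simp only [List.forall_mem_cons] at h0 h1 ⊢
    have h3 : ∀ a ∈ twS x (e6Words K 2), ∀ b ∈ twS x (e6Words K 2), ⁅a, b⁆ ∈ twS x (e6Words K 2) := fun a ha b hb =>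
      mul_mem (mul_mem (mul_mem ha hb) (inv_mem ha)) (inv_mem hb)
    exact ⟨h0.1 ▸ h3 _ h1.1 _ h1.2.2.1, h0.2.1 ▸ h3 _ h1.2.1 _ h1.2.2.2.1, by simp⟩
  obtain ⟨y, hy⟩ := exists_mono_ne hφ (e := (0, 1, 0)) (m := 2) (by simp) (by simp) (by omega)
  have h4 : y ^ 4 = y := Units.ext (by rw [← hF]; exact FiniteField.pow_card _)
  replace hy : y ^ 2 ≠ 1 := fun e => hy (Units.ext (by simpa [mono, hφ] using congrArg Units.val e))
  refine twS_le.2 ?_
  rintro l (⟨t, ht, r, hr, rfl⟩ | ⟨t, r, hr, rfl⟩)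
  · obtain rfl | rfl : t = 0 ∨ t = 1 := by
      rwa [pow_two, ← sub_eq_zero, ← mul_sub_one, mul_eq_zero, sub_eq_zero] at ht
    · simp [hx.zero]
    obtain ⟨a, h5, rfl, h6, h7⟩ := (by decide : ∀ r ∈ [46, 25, 39, 32], ∃ a ∈ [(46, 39, 47), (25, 32, 24), (47, 32, 46),
      (47, 25, 39), (24, 39, 25), (24, 46, 32)], a.2.2 = r ∧ a.1 ∈ [47, 24] ∧ a.2.1 ∈ [46, 25, 39, 32]) r hr
    simpa [h0 a h5] using Subgroup.commutator_mem_commutator (h2 _ h6) (h1 _ h7)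
  · obtain ⟨c, -, hc, n, hn, h5, h6, h7, h8⟩ := (by decide +kernel : ∀ r ∈ [(56, 36), (15, 35), (42, 37), (29, 34)],
      ∃ c ∈ [fun i : Fin chevE6.rank => if i.1 = 2 then (1 : ℤ) else if i.1 = 4 then 2 else 0,
        fun i => if i.1 = 0 then 1 else if i.1 = 5 then 2 else 0],
      (∀ i, 3 ∣ c (pfE6 i) - c i * 2) ∧ ∃ n ∈ [(1 : ℤ), -1], c ⬝ᵥ wt chevE6 r.1 = 2 * n ∧
      c ⬝ᵥ wt chevE6 r.2 = 2 * n * 2 ∧ r.1 ≠ chevE6.neg r.2 ∧ chevE6.commTerms r.2 r.1 = []) r hr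
    have h9 := hProd_mem_E6 hx hx.R3_of_finite hφ (a := fun i => y ^ c i) fun i => by
      obtain ⟨k, e⟩ := hc i
      beta_reduce
      rw [eq_add_of_sub_eq e, _root_.zpow_add, _root_.zpow_mul, _root_.zpow_mul, show y ^ (3 : ℤ) = 1 from
        mul_right_cancel (b := y) (by rw [one_mul, ← _root_.zpow_add_one]; exact h4)]
      simp [zpow_ofNat]
    have h10 : ∀ r t, _ * x r t * _ = x r ((y ^ (c ⬝ᵥ wt chevE6 r) : Kˣ) * t) := fun r t => by
      rw [← torChar_pow]; exact hx.acts_hProd (fun i => y ^ c i) r t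
    simpa [hφ] using mem_comm_of (ξ := fun t => x r.1 t * x r.2 (φ t)) (fun t u => by
        rw [map_add, hx.add, hx.add, mul_assoc, mul_assoc, ← mul_assoc (x r.2 _), (hx.commute h7 h8 _ _).eq, mul_assoc])
      (fun t => hφ t ▸ mem_e6b hr t) h9 (c := (y ^ (2 * n) : Kˣ)) (by
        rw [Ne, Units.val_eq_one, _root_.zpow_mul]
        simp only [List.mem_cons, List.not_mem_nil, or_false] at hn
        rcases hn with rfl | rfl <;> simpa [zpow_ofNat] using hy) (fun t => by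
        rw [map_mul, hφ (Units.val _), ← Units.val_pow_eq_pow_val, ← zpow_ofNat, ← _root_.zpow_mul, ← h6, ← h5, ← h10, ← h10]; group) t

theorem hasSchur_E62 [Fintype K] (hF : Fintype.card K = 4)
    (H : ∀ {φ : K →+* K} {σ : chevE6.group K →* chevE6.group K} [CharP K 2], (∀ t, φ t = t ^ 2) →
      TwD chevE6 (xg chevE6 K) σ rhoE6 pfE6 (twF H7.twE6 φ) (twS (xg chevE6 K) (e6Words K 2)) (fun i => {j | j ∈ oLE6 i})
        (fun _ => 2) (zE6 (xg chevE6 K) 2) → L0.PMult (twS (xg chevE6 K) (e6Words K 2)) 2 1 2 ∧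
        L0.LowerMult (twS (xg chevE6 K) (e6Words K 2)) (Multiplicative (ZMod 2 × ZMod 2))) :
    HasSchurMultiplier (twistedE6 K 2) (Multiplicative (ZMod 3 × ZMod 2 × ZMod 2)) := by
  obtain ⟨φ, hφ⟩ := exists_frob (q := 2) hF two_ne_zero
  have : CharP K 2 := charP_of_card_eq_prime_pow (p := 2) (f := 2) hF
  have h2 : ∀ t, φ (φ t) = t := fun t => by rw [hφ, hφ, ← pow_mul]; exact (congrArg _ hF.symm).trans (FiniteField.pow_card t)
  obtain ⟨σ, hσ⟩ := exists_twistE6 (isChev_xg (K := K)) GG_xg φ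
  have h := twD_E6 isChev_xg GG_xg hφ h2 hσ
  have hU := L0.upper_three_two_two (k := 1) rfl (H hφ h).1 (pmult_odd_E6 hφ h).1 (pmult_odd_E6 hφ h).2
  have := h.chev.finite_G h.top
  refine L0.hasSchur_congr (L0.hasSchur_of ((lower_prod (A := Multiplicative (ZMod 3)) ?_ (H hφ h).2 (m := 4) (n := 3)
    (by decide) (by decide) (by decide) (by decide)).congr_right (MulEquiv.prodMultiplicative _ _).symm) hU) (twEquiv (e6Words K 2))
  have hy := scovE6.isSC (K := K)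
  obtain ⟨θ, h4, -, h5, -⟩ := hy.exists_cover
  have h6 := map_twS (x := ys chevE6 chevE7 K _ _) θ (e6Words K 2)
  rw [funext₂ h4] at h6
  let τ := (MulEquiv.subgroupCongr h6).toMonoidHom.comp (θ.subgroupMap _)
  have h7 : ∀ g, τ g = 1 ↔ θ g = 1 := fun g => Subtype.ext_iff
  have hτ : IsStemExtension τ := ⟨(MulEquiv.subgroupCongr h6).surjective.comp (θ.subgroupMap_surjective _), fun g hg =>
    Subgroup.mem_center_iff.2 fun a => Subtype.ext (Subgroup.mem_center_iff.1 (h5 ((h7 g).1 hg)) a), fun g _ => by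
      have := perfect_E62 hy.toIsSt hF hφ g.2
      rw [← Subgroup.map_subtype_commutator] at this
      exact (Subgroup.mem_map_iff_mem Subtype.val_injective).1 this⟩
  obtain ⟨π, hπ⟩ : ∃ π : Multiplicative (ZMod 3) →* τ.ker, Function.Surjective π := upper_E6_of_pk (p := 2) hφ h hτ fun z hz h8 => by
    obtain ⟨a, e, -⟩ := (mem_ker_iff hy.toIsSt hy.gen isChev_xg h4).1 ((h7 z).1 hz)
    have h9 : a ^ 3 = 1 := funext fun i => Units.ext (by
      simpa [hF] using FiniteField.pow_card_sub_one_eq_one _ (a i).ne_zero)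
    have : z ^ 3 = 1 := Subtype.ext (by
      rw [Subgroup.coe_pow, e, ← hy.toIsSt.hProdHom_eq hy.r3, ← map_pow, h9, map_one]; rfl)
    rwa [pow_succ, h8, one_mul] at this
  have h8 : Nat.card _ = 3 := (card_TS_E6 (q := 2) hF).1
  obtain ⟨a, ha⟩ := Subgroup.ne_bot_iff_exists_ne_one.1 ((Subgroup.one_lt_card_iff_ne_bot _).1 (h8.ge.trans_lt' (by norm_num)))
  have h9 : Nontrivial τ.ker := ⟨⟨⟨_, hProd_mem_E6 hy.toIsSt hy.r3 hφ a.2.2⟩, (h7 _).2
    ((mem_ker_iff hy.toIsSt hy.gen isChev_xg h4).2 ⟨_, rfl, a.2.1⟩)⟩, 1,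
    fun e => ha (Subtype.ext (hy.inj _ (congrArg (fun g : τ.ker => g.1.1) e)))⟩
  refine L0.lowerMult_of τ hτ (MulEquiv.ofBijective π ((Nat.bijective_iff_surjective_and_card _).2 ⟨hπ, ?_⟩)).symm
  have h10 := Subgroup.card_dvd_of_surjective π hπ
  rw [Nat.card_congr Multiplicative.toAdd, Nat.card_zmod] at h10 ⊢
  exact (((Nat.dvd_prime Nat.prime_three).1 h10).resolve_left Finite.one_lt_card.ne').symm

end Cfsg.Agent.H8
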