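import Cfsg.Agent.H8.E62T
import Cfsg.Agent.H8.E62A
import Cfsg.Agent.H8.TwCard

/-! The Sylow subgroup of the twisted group of type `E6` over the field with four elements. -/

set_option autoImplicit false
set_option linter.unusedSectionVars false

namespace Cfsg.Agent.H8.E62

open Cfsg.Lie Matrix Cfsg.Agent.H7 Cfsg.Agent.L0

universe u

variable {K : Type u} [Field K] [Fintype K] [CharP K 2] {G : Type u} [Group G] {x : ℕ → K → G} {φ : K →+* K} {σ : G →* G} {ω : K}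

local notation "𝐒" => twS x (e6Words K 2)

variable (x φ σ ω) in
/-- The setting. -/
structure Ctx : Prop where
  card : Fintype.card K = 4
  frob : ∀ t, φ t = t ^ 2
  tw : TwD chevE6 x σ rhoE6 pfE6 (twF H7.twE6 φ) 𝐒 (fun i => {j | j ∈ oLE6 i}) (fun _ => 2) (zE6 x 2)
  om : ω ^ 2 = ω + 1

variable (x ω) in
open Classical in
/-- The letters. -/
noncomputable def gS (i : ℕ) : 𝐒 := if h : ev4 x ω (LW.getD i []) ∈ 𝐒 then ⟨_, h⟩ else 1

theorem pos_iff6 : ∀ r < 72, (chevE6.IsPosRoot r ↔ 36 ≤ r) ∧ (chevE6.IsNegRoot r ↔ r < 36) := by decide +kernel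

theorem pos6 {r : ℕ} (h : 36 ≤ r ∧ r < 72) : chevE6.IsPosRoot r := (pos_iff6 r h.2).1.2 h.1

theorem e4_cf (r : ℕ) (a : ℕ × ℕ) (w : W4) : e4 ω (cf r (a :: w)) = (if a.1 = r then e4 ω a.2 else 0) + e4 ω (cf r w) := by
  rw [cf, List.foldr_cons, e4_add4]
  split_ifs <;> simp [cf]

theorem co_ev4 (hx : IsSt chevE6 x) (i : Fin chevE6.rank) {w : W4} (hw : ∀ a ∈ w, 36 ≤ a.1 ∧ a.1 < 72) :
    Co chevE6 x i (ev4 x ω w) (e4 ω (cf (chevE6.simple i) w)) := by
  induction w with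
  | nil => simpa [cf] using Co.one hx
  | cons a w ih =>
    rw [ev4_cons, e4_cf]
    exact (Co.root hx (pos6 (hw a (by simp))) i _).mul hx (ih fun b hb => hw b (by simp [hb]))

theorem coL_ev4 (hx : IsSt chevE6 x) {r : ℕ} (hr : chevE6.IsPosRoot r) {w : W4}
    (hw : ∀ a ∈ w, (36 ≤ a.1 ∧ a.1 < 72) ∧ layE6 r ≤ layE6 a.1) : CoL chevE6 x layE6 r (ev4 x ω w) (e4 ω (cf r w)) := by
  induction w with
  | nil => simp [cf, CoL, hx.zero]
  | cons a w ih =>
    rw [ev4_cons, e4_cf]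
    exact layOK_E6.coL_mul hx hr (layOK_E6.coL_root hx ⟨pos6 (hw a (by simp)).1, (hw a (by simp)).2⟩ _)
      (ih fun b hb => hw b (by simp [hb]))

namespace Ctx

variable (C : Ctx x φ σ ω)
include C

theorem code (t : K) : ∃ c < 4, t = e4 ω c := by
  have h1 : t ^ 4 = t := C.card ▸ FiniteField.pow_card t
  have h2 : (2 : K) = 0 := CharTwo.two_eq_zero
  have h3 : t * (t - 1) * (t - ω) * (t - (ω + 1)) = 0 := by
    linear_combination h1 + (t ^ 2 - t) * C.om + (t - (ω + 1) * t ^ 3 + (2 * ω + 1) * t ^ 2 - (ω + 1) * t) * h2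
  simp only [mul_eq_zero, sub_eq_zero] at h3
  obtain ((h | h) | h) | h := h3
  · exact ⟨0, by simp [h]⟩
  · exact ⟨1, by simp [h]⟩
  · exact ⟨2, by simp [h, e4, h2]⟩
  · exact ⟨3, by simp [h, e4, show (3 : K) = 2 + 1 by norm_num, h2, add_comm]⟩

theorem map_x (r c : ℕ) : σ (x r (e4 ω c)) = x (twT H7.twE6 r).1 (e4 ω (mul4 c c)) := by
  rw [C.tw.tw.map, twF, e4_mul4 C.om, C.frob]
  by_cases hr : r < 72
  · obtain ⟨-, -, -, -, h1, h2⟩ := okE6.2.2.1 r hr
    rcases h1 with h1 | h1 <;> simp [h1, or_self_iff.1 h2, CharTwo.neg_eq, pow_two] <;> rfl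
  · simp [twT_ge (L := H7.twE6) (not_lt.1 hr), pow_two, rhoE6, twP]

theorem mem_fx {w : W4} (h : fx w = true) : ev4 x ω w ∈ 𝐒 := by
  simp only [fx, Bool.and_eq_true, Bool.or_eq_true, List.all_eq_true, decide_eq_true_eq] at h
  have h1 := (ev4_map fun a _ => C.map_x a.1 a.2).trans (eq_of_eq4 C.om C.tw.st agrE6 h.2)
  exact h.1.elim (fun h => C.tw.sub.mem_of_UU C.tw.tw C.tw.faith (ev4_mem fun a ha => pos6 (h a ha)) h1) fun h =>
    C.tw.sub.mem_of_VV C.tw.tw C.tw.faith (ev4_mem fun a ha => (pos_iff6 _ ((h a ha).trans (by decide))).2.2 (h a ha)) h1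

theorem coe_g (i : ℕ) : (gS x ω i : G) = ev4 x ω (LW.getD i []) := by
  have : ev4 x ω (LW.getD i []) ∈ 𝐒 := by
    by_cases hi : i < 44
    · obtain ⟨l, -, e, h⟩ := memW i hi
      rw [e, ev4_wd4]
      exact L0.ev_mem _ _ fun j hj => C.mem_fx (h j hj)
    · rw [List.getD_eq_default _ _ (not_lt.1 hi)]; exact one_mem _
  rw [gS, dif_pos this]

theorem coe_ev (l : List ℕ) : (L0.ev (gS x ω) l : 𝐒) = ev4 x ω (wd4 LW l) := by
  rw [ev4_wd4, ← funext C.coe_g]; exact L0.map_ev _ (Subgroup.subtype _) l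

theorem g_eq {key : ℕ → ℕ} {l l' : List ℕ} (h : eqw key l l' = true) : L0.ev (gS x ω) l = L0.ev (gS x ω) l' :=
  Subtype.ext (by rw [C.coe_ev, C.coe_ev, eq_of_eq4 C.om C.tw.st agrE6 h])

theorem rel {f : ℕ → ℕ} {P : PcP} (hp : P.p = 2) (h : relOk f P = true) :
    (∀ i j, i < j → j ≤ P.n1 → gS x ω (f j) * gS x ω (f i) = gS x ω (f i) * rval (fun i => gS x ω (f i)) P.b P.n1 (P.R i j)) ∧
    ∀ i, i ≤ P.n1 → gS x ω (f i) ^ P.p = rval (fun i => gS x ω (f i)) P.b P.n1 (P.R i i) := by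
  simp only [relOk, L0.allL_iff, Bool.and_eq_true, List.mem_range] at h
  exact ⟨fun i j h1 h2 => by simpa [L0.ev_map] using! C.g_eq ((h j (by omega)).2 i h1),
    fun i h1 => by simpa [L0.ev_map, hp, pow_two] using! C.g_eq (h i (by omega)).1⟩

theorem g_mem {i : ℕ} (hi : i < 38) : (gS x ω i : G) ∈ UU chevE6 x := C.coe_g i ▸ ev4_mem fun a ha => pos6 (posW i hi a ha)

theorem closure_eq : Subgroup.closure (gS x ω '' {y | y < 36}) = (UU chevE6 x).subgroupOf 𝐒 := by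
  refine le_antisymm ((Subgroup.closure_le _).2 (by rintro _ ⟨i, hi, rfl⟩; exact C.g_mem (hi.trans (by decide)))) ?_
  obtain ⟨co, χ, F, h1, -⟩ := (layOK_E6 (K := K)).exists_filt C.tw.chev C.tw.tw (θ := Subgroup.subtype 𝐒) (by simp)
    fun g => C.tw.sub.fix _ g.2
  have key : ∀ k ≤ 24, (XS x (FL chevE6 layE6 k)).comap (Subgroup.subtype 𝐒) ≤ Subgroup.closure (gS x ω '' {y | y < 36}) := by
    intro k hk
    induction hk using Nat.decreasingInduction with
    | self => exact F.last.trans (by simp)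
    | of_succ k hk ih =>
      intro a ha
      obtain ⟨h2, h3⟩ := (layOK_E6 (K := K)).base k hk
      obtain ⟨t, ht⟩ := layOK_E6.exists_coL C.tw.st h2 (h3.symm ▸ ha)
      obtain ⟨c, hc, rfl⟩ := C.code t
      obtain ⟨h4, h5⟩ | ⟨h4, h5, h6⟩ := (by decide +kernel : ∀ k < 24, ∀ c < 4, (twT H7.twE6 (bE6 k)).1 = bE6 k ∧ 1 < c ∨
        (∀ y ∈ (GW.getD k []).getD c [], y < 36) ∧ cf (bE6 k) (wd4 LW ((GW.getD k []).getD c [])) = c ∧
        ∀ a ∈ wd4 LW ((GW.getD k []).getD c []), (36 ≤ a.1 ∧ a.1 < 72) ∧ layE6 (bE6 k) ≤ layE6 a.1) k hk c hc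
      · have h6 := layOK_E6.coL_map C.tw.tw h2 ht
        rw [show σ (Subgroup.subtype 𝐒 a) = _ from C.tw.sub.fix _ a.2, show rhoE6 (bE6 k) = bE6 k from h4] at h6
        have h7 := C.map_x (bE6 k) c
        rw [C.tw.tw.map, show rhoE6 (bE6 k) = bE6 k from h4, h4, layOK_E6.coL_unique C.tw.faith h2 h6 ht] at h7
        have h8 : e4 ω (add4 c (mul4 c c)) = 0 := by rw [e4_add4, ← C.tw.faith.x_inj h2.1 h7, CharTwo.add_self_eq_zero]
        interval_cases c <;> exact absurd (e4_one.symm.trans h8) one_ne_zero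
      · have h7 := coL_ev4 (ω := ω) C.tw.st h2 h6
        rw [h5, ← C.coe_ev] at h7
        exact (mul_mem_cancel_left (inv_mem (L0.ev_mem _ _ fun y hy => Subgroup.subset_closure (by exact ⟨y, h4 y hy, rfl⟩)))).1
          (ih ((F.crd k hk).eq (by simpa only [h3] using! h7.mem h2) ha ((h1 k hk _ _ h7).trans (h1 k hk _ _ ht).symm)))
  exact fun a ha => key 0 (by simp) (by rwa [XS_FL_zero])

theorem fin : Finite G := C.tw.chev.finite_G C.tw.top

theorem card_ge : 2 ^ 36 ≤ Nat.card (Subgroup.closure (gS x ω '' {y | y < 36})) := by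
  have := C.fin
  have hx := C.tw.faith
  rw [C.closure_eq, ← Subgroup.inf_subgroupOf_left, Nat.card_congr (Subgroup.subgroupOfEquivOfLe inf_le_left).toEquiv, ← pow_one (Nat.card _)]
  refine C.tw.sub.pow_le_card_UU C.tw.tw hx fun i => ?_
  rcases (by decide +kernel : ∀ i : Fin chevE6.rank, (∃ r ∈ [46, 25, 39, 32], BaseOK chevE6 (oLE6 i) (oLE6 i) [r]) ∨
    ∃ r ∈ [(56, 36), (15, 35), (42, 37), (29, 34)], r.2 ≠ r.1 ∧ BaseOK chevE6 (oLE6 i) (oLE6 i) [r.1, r.2]) i with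
    ⟨r, hr, h1⟩ | ⟨r, hr, h0, h1⟩
  · have := base_le hx (J := oLE6 i) (oLE6 i) (R := [r]) (fun (a : {t : K // t ^ 2 = t}) _ => a.1)
      (fun a => by simpa using mem_e6a hr a.2) (fun a b h => Subtype.ext (h r (by simp))) h1
    exact (Nat.pow_le_pow_right two_pos this.1).trans (by simpa [card_fixed (q := 2) C.card two_ne_zero] using this.2)
  · have := base_le hx (J := oLE6 i) (oLE6 i) (R := [r.1, r.2]) (fun (a : K) k => if k = r.1 then a else a ^ 2)
      (fun a => by simpa [h0] using mem_e6b hr a) (fun a b h => by simpa using h r.1 (by simp)) h1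
    exact (Nat.pow_le_pow_right two_pos this.1).trans (by simpa [C.card] using this.2)

theorem odd : Odd (Subgroup.closure (gS x ω '' {y | y < 36})).index := by
  have := C.fin
  obtain ⟨P, hP⟩ := C.tw.exists_sylow 2
  rw [C.closure_eq, ← hP, ← Nat.not_even_iff_odd, even_iff_two_dvd]
  exact P.not_dvd_index

theorem pmult : PMult 𝐒 2 1 2 := by
  have := C.fin
  have h1 : ∀ i, (nthN [160, 168] i, nthN [7516192768, 12884901888] i) ∈ [(160, 7516192768), (168, 12884901888), (0, 0)] := by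
    rintro (_ | _ | i) <;> simp [nthN_eq]
  have h2 : ∀ a ∈ [(160, 7516192768), (168, 12884901888), (0, 0)], eqw id (rwd 1 35 a.1 ++ rwd 1 35 a.1) [] = true ∧
      eqw id (rwd 1 35 a.1 ++ rwd 1 35 a.2) (rwd 1 35 a.2 ++ rwd 1 35 a.1) = true := by decide +kernel
  refine pmult_two stU (C.rel rfl relU).1 (C.rel rfl relU).2 (fun t => ?_) C.card_ge C.odd upU (a := nthN [160, 168])
    (b := nthN [7516192768, 12884901888]) (fun i => ?_) (fun i => ?_) (by decide +kernel)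
  · by_cases ht : t < 65
    · simpa using! C.g_eq ((L0.allL_iff _ _).1 fusU t (List.mem_range.2 ht))
    · simp only [nthN_eq]
      rw [List.getD_eq_default fu.U _ (not_lt.1 ht), List.getD_eq_default fu.V _ (not_lt.1 ht)]
      simp [rval, rwd_zero]
  · simpa [pow_two] using! C.g_eq (h2 _ (h1 i)).1
  · simpa using! C.g_eq (h2 _ (h1 i)).2

end Ctx

end Cfsg.Agent.H8.E62
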