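import Cfsg.Agent.H8.E62G

/-! The Schur multiplier of the twisted group of type `E6` over the field with four elements. -/

set_option autoImplicit false
set_option linter.unusedSectionVars false

namespace Cfsg.Agent.H8.E62

open Cfsg.Lie Matrix Cfsg.Agent.H7 Cfsg.Agent.L0

universe u

theorem exists_rho : ∃ (ρ : ℕ → GL (Fin 17) (ZMod 2)) (j : Multiplicative (ZMod 2 × ZMod 2) →* GL (Fin 17) (ZMod 2)),
    Function.Injective j ∧ (∀ a, j a = ρ (cA a)) ∧ (∀ i, ρ i ^ 2 = 1) ∧ (∀ a i, Commute (ρ i) (j a)) ∧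
    ∀ l l', eqm l l' = true → L0.ev ρ l = L0.ev ρ l' := by
  have h := H9.PM.ok_of okP
  have h1 : ∀ i, P17.Valid (mc i) ∧ Nat.beq (P17.mul (mc i) (mc i)) P17.one = true := fun i => by
    have : mc i ∈ MR := by
      by_cases hi : i < MR.length
      · rw [mc, List.getD_eq_getElem _ _ hi]; exact List.getElem_mem hi
      · rw [mc, List.getD_eq_default _ _ (not_lt.1 hi)]; decide +kernel
    exact ((Bool.and_eq_true _ _).mp ((L0.allL_iff _ _).1 valM _ this)).imp_left (H9.PM.valid_of (by decide))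
  let M := H9.PM.glModel h (d := 1) (Equiv.refl (Fin 17)) (0 : ZMod 2) rfl one_pos rfl
  have h2 := fun i => H9.PM.rep_toMat_one (Equiv.refl (Fin 17)) (0 : ZMod 2) (h1 i).1
  let ρ : ℕ → GL (Fin 17) (ZMod 2) := fun i => H9.PM.glOf h (d := 1) rfl one_pos rfl (h2 i) (h2 i) (h1 i).2
  have h3 : ∀ l l', eqm l l' = true → L0.ev ρ l = L0.ev ρ l' := fun l l' e => by
    have a := M.rep_evalL mc ρ l (fun i _ => h2 i) M.rep_one
    have b := M.rep_evalL mc ρ l' (fun i _ => h2 i) M.rep_one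
    rw [one_mul] at a b
    exact M.rep_unique a ((Nat.eq_of_beq_eq_true e).symm ▸ b :)
  refine ⟨ρ, MonoidHom.mk' (fun a => ρ (cA a)) fun a b => by simpa using h3 _ _ (homM a b), fun a b e => injM a b
    (H9.PM.Rep.code_unique h rfl (H9.PM.indep_one 2 0) (h2 _) (by
      rw [show P17.toMat _ _ 1 (mc (cA a)) = _ from congrArg Units.val e]; exact h2 _)), fun _ => rfl,
    fun i => (pow_two _).trans (Units.ext (ρ i).val_inv), fun a i => ?_, h3⟩
  by_cases hi : i < 40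
  · obtain ⟨k, hk, e⟩ := (by decide : ∀ a, ∃ k < 4, cA a = 36 + k) a
    simpa [← e] using! h3 _ _ ((L0.allL_iff _ _).1 ((L0.allL_iff _ _).1 cenM i (List.mem_range.2 hi)) k (List.mem_range.2 hk))
  · rw [show ρ i = 1 from M.rep_unique (h2 i) (by rw [mc, List.getD_eq_default _ _ (not_lt.1 hi)]; exact M.rep_one)]
    exact Commute.one_left _

variable {K : Type u} [Field K] [Fintype K] [CharP K 2] {G : Type u} [Group G] {x : ℕ → K → G} {φ : K →+* K} {σ : G →* G} {ω : K}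

local notation "𝐒" => twS x (e6Words K 2)

local notation "𝐧 " k:max => (⟨k, by decide⟩ : Fin chevE6.rank)

theorem sh_ge {l : ℕ} (h : ¬l < 32) : sh l = 36 := by rw [sh, Bool.eq_false_iff.2 fun e => h (Nat.blt_eq.mp e)]

theorem sh_lt (l : ℕ) : sh l < 38 ∧ ∃ k < 33, sh l = sh k ∧ ∀ c < 3, hw c l = hw c k := by
  by_cases h : l < 33
  · exact ⟨by revert l; decide, l, h, rfl, fun _ _ => rfl⟩
  · rw [sh_ge (by omega)]
    exact ⟨by decide, 32, by decide, rfl, fun c hc => by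
      rw [hw, List.getD_eq_default _ _ (le_trans (by revert c; decide) (not_lt.1 h))]; revert c; decide⟩

namespace Ctx

variable (C : Ctx x φ σ ω)
include C

theorem e4_ne {c : ℕ} (h : c < 3) : e4 ω (c + 1) ≠ 0 := fun e => by
  have : e4 ω (pow4 (c + 1) 3) = 0 := by rw [e4_pow4 C.om, e]; simp
  interval_cases c <;> exact one_ne_zero (e4_one.symm.trans this)

theorem torus {n : 𝐒} (hn : (n : G) ∈ HH chevE6 x) : ∃ c < 3, ∀ l, n * gS x ω (sh l) * n⁻¹ = L0.ev (gS x ω) (hw c l) ∧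
    ∀ y ∈ hw c l, y < 36 := by
  obtain ⟨a, ha⟩ := C.tw.st.acts_of_mem_HH hn
  have h1 := C.tw.chS_le (mem_chS_of_acts C.tw.st n.2 hn ha fun _ => rfl)
  have h3 : ∀ y : Kˣ, y ^ 3 = 1 := fun y => Units.ext (by simpa [C.card] using FiniteField.pow_card_sub_one_eq_one _ y.ne_zero)
  have h4 : ∀ v c : Fin chevE6.rank → ℤ, (∀ k, v k = ∑ j, c j * wt chevE6 (chevE6.simple j) k) →
      torChar a v = torChar (fun j : Fin chevE6.rank => torChar a (wt chevE6 (chevE6.simple j))) c := fun v c h => by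
    rw [show v = ∑ j, c j • wt chevE6 (chevE6.simple j) from funext fun k => by simp [h], H7.torChar_sum]
    simp only [torChar_smul]; rfl
  have h5 := h4 ((3 : ℤ) • fun i : Fin chevE6.rank => [0, 0, 1, -1, 0, 1].getD i 0) (fun i => [1, 0, 2, 0, 1, 2].getD i 0) (by decide +kernel)
  rw [torChar_smul] at h5
  have h6 := fun r (hr : r < 72) => h4 (wt chevE6 r) (cor chevE6 r) (by revert r; decide +kernel)
  generalize (fun j : Fin chevE6.rank => torChar a (wt chevE6 (chevE6.simple j))) = b at h1 h5 h6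
  have b1 : b (𝐧 1) = 1 := by simpa [pow_two] using show b (𝐧 1) = _ from h1 (𝐧 1)
  have b3 : b (𝐧 3) = 1 := by simpa [pow_two] using show b (𝐧 3) = _ from h1 (𝐧 3)
  have b4 : b (𝐧 4) = b (𝐧 2) ^ 2 := h1 (𝐧 2)
  have b5 : b (𝐧 5) = b (𝐧 0) ^ 2 := h1 (𝐧 0)
  have b2 : b (𝐧 2) = b (𝐧 0) := by
    have h7 : torChar b (fun i => [1, 0, 2, 0, 1, 2].getD i 0) = b (𝐧 0) ^ (1 : ℤ) * b (𝐧 1) ^ (0 : ℤ) * b (𝐧 2) ^ (2 : ℤ) *
      b (𝐧 3) ^ (0 : ℤ) * b (𝐧 4) ^ (1 : ℤ) * b (𝐧 5) ^ (2 : ℤ) := Fin.prod_univ_six _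
    rw [zpow_ofNat, h3, h7, b4, b5] at h5
    refine (show _ = b (𝐧 0) ^ 3 * b (𝐧 0) ^ 3 * b (𝐧 2) ^ 3 * b (𝐧 2) by simp [h3]).trans
      (Eq.trans ?_ ((congrArg (b (𝐧 0) * ·) h5).symm.trans (mul_one _)))
    exact Units.ext (by simp [zpow_ofNat]; ring)
  obtain ⟨c, hc, e⟩ := C.code (b (𝐧 0))
  obtain rfl | ⟨c, rfl⟩ := c.eq_zero_or_eq_succ_pred.imp_right fun h => (⟨_, h⟩ : ∃ k, c = k + 1)
  · exact absurd (e.trans e4_zero) (Units.ne_zero _)
  refine ⟨c, by omega, fun l => ?_⟩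
  obtain ⟨h7, k, hk, e1, e2⟩ := sh_lt l
  obtain ⟨h8, h9⟩ := torW c (by omega) k hk
  rw [e2 c (by omega), e1]
  refine ⟨Subtype.ext ?_, h9⟩
  rw [C.coe_ev, ← eq_of_eq4 C.om C.tw.st agrE6 h8, ← ev4_map (φ := (MulAut.conj (n : G)).toMonoidHom) fun p hp => ?_, ← C.coe_g]
  · rfl
  have h10 := posW _ (e1 ▸ h7) p hp
  refine (ha _ _).trans ?_
  beta_reduce
  rw [e4_mul4 C.om, e4_pow4 C.om, ← e, h6 _ h10.2, show b = fun i : Fin chevE6.rank => b (𝐧 0) ^ [(1 : ℤ), 0, 1, 0, 2, 2].getD i 0 from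
    funext fun i => by fin_cases i <;> simp [b1, b2, b3, b4, b5, zpow_ofNat], torChar_pow,
    (by decide +kernel : ∀ r < 72, 36 ≤ r → (fun i : Fin chevE6.rank => [(1 : ℤ), 0, 1, 0, 2, 2].getD i 0) ⬝ᵥ cor chevE6 r = ex4 r) _ h10.2 h10.1]
  simp

theorem fixed {y t : 𝐒} (ht : t ∈ Subgroup.closure (Set.range fun l => gS x ω (sh l)))
    (h : (y⁻¹ * (L0.ev (gS x ω) [0, 1, 2, 3] * t) * y : 𝐒).1 ∈ UU chevE6 x) :
    ∃ u n : 𝐒, (u : G) ∈ UU chevE6 x ∧ (n : G) ∈ HH chevE6 x ∧ y⁻¹ = u * n := by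
  have h1 : ∀ i, ∃ c < 2, Co chevE6 x i t (e4 ω c) ∧ (i.1 = 1 ∨ i.1 = 3 → c = 0) := fun i => by
    clear h
    induction ht using Subgroup.closure_induction with
    | mem _ ht =>
      obtain ⟨l, rfl⟩ := ht
      obtain ⟨h1, k, hk, e, -⟩ := sh_lt l
      have := (by decide +kernel : ∀ i : Fin chevE6.rank, ∀ k < 33, cf (chevE6.simple i) (LW.getD (sh k) []) < 2 ∧
        (i.1 = 1 ∨ i.1 = 3 → cf (chevE6.simple i) (LW.getD (sh k) []) = 0)) i k hk
      exact ⟨_, e ▸ this.1, C.coe_g _ ▸ co_ev4 C.tw.st i (posW _ h1), e ▸ this.2⟩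
    | one => exact ⟨0, two_pos, by simpa using Co.one C.tw.st, fun _ => rfl⟩
    | mul _ _ _ _ a b =>
      obtain ⟨c, h1, h2, h3⟩ := a
      obtain ⟨d, h4, h5, h6⟩ := b
      exact ⟨add4 c d, by interval_cases c <;> interval_cases d <;> decide, e4_add4 (ω := ω) c d ▸ h2.mul C.tw.st h5,
        fun e => by rw [h3 e, h6 e]; rfl⟩
    | inv _ _ a => exact a.imp fun c a => ⟨a.1, by simpa [CharTwo.neg_eq] using Co.inv C.tw.faith a.2.1, a.2.2⟩
  obtain ⟨w, hW, -, h2⟩ := C.tw.exists_cell y⁻¹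
  obtain rfl := eq_one_of_simple_pos hW fun i => by
    obtain ⟨c, h3, h4, h5⟩ := h1 i
    have h6 := (C.coe_ev _ ▸ co_ev4 (ω := ω) C.tw.st i (w := wd4 LW [0, 1, 2, 3]) (by decide)).mul C.tw.st h4
    obtain ⟨d, h7, e⟩ := (by decide +kernel : ∀ i : Fin chevE6.rank, ∀ c < 2, (i.1 = 1 ∨ i.1 = 3 → c = 0) →
      ∃ d < 3, add4 (cf (chevE6.simple i) (wd4 LW [0, 1, 2, 3])) c = d + 1) i c h3 h5
    exact C.tw.faith.pos_of_conj h2 h6.mem_UU (h6.notMem C.tw.faith (by rw [← e4_add4, e]; exact C.e4_ne h7))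
      (UU_le_BB x (by simpa using h))
  obtain ⟨u, n, u', h3, h4, h5, e⟩ := C.tw.bruhat _ h2
  have h6 := h4.mem_HH C.tw.st
  exact ⟨u * (n * u' * n⁻¹), n, mul_mem h3 (C.tw.st.HH_conj_XS h6 (Um_le_UU x _ h5)), h6, by rw [e]; group⟩

theorem lower : LowerMult 𝐒 (Multiplicative (ZMod 2 × ZMod 2)) := by
  have := C.fin
  obtain ⟨ρ, j, j1, j2, j3, j4, j5⟩ := exists_rho
  obtain ⟨E, _, _, π, ι, Y, H, h1, h2⟩ := exists_trD (g := gS x ω) j1 (by decide) j4 (n := 36) (W := fun i k => rwd 1 35 (PU.R i k))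
    (fun i k a b y hy => (rwd_letters one_pos _ ((by decide +kernel : ∀ k < 36, ∀ i ≤ k, PU.R i k < pw 1 (35 - i)) k b i a) y hy).imp_right
      Nat.lt_succ_of_le) (fun i k a b => ⟨(C.rel rfl relU).1 i k a (Nat.le_of_lt_succ b), by
        obtain ⟨c, e⟩ := surjA (fld 2 TL (tri i k)) (Nat.mod_lt _ (by decide))
        exact ⟨c, by simpa [j2, e, mul_assoc] using j5 _ _ ((L0.allL_iff _ _).1 ((L0.allL_iff _ _).1 relM k (List.mem_range.2 b)) i
          (List.mem_range.2 a))⟩⟩) (fun i a => ⟨(C.rel rfl relU).2 i (Nat.le_of_lt_succ a), by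
        rw [j3, (by decide +kernel : ∀ i < 36, PU.R i i = 0) i a]; rfl⟩) C.card_ge
  refine H.lower C.odd (Subgroup.map_injective (Subgroup.subtype_injective _) (by
      rw [Subgroup.map_subtype_commutator, ← MonoidHom.range_eq_map, Subgroup.range_subtype]
      exact le_antisymm (Subgroup.commutator_le.2 fun a ha b hb => mul_mem (mul_mem (mul_mem ha hb) (inv_mem ha)) (inv_mem hb))
        (perfect_E62 C.tw.st C.card C.frob))) (fun l => gS x ω (sh l)) (L0.ev (gS x ω) [0, 1, 2, 3])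
    (fun l => rwd 1 31 (nthN VN l)) (fun l => ?_) ?_ {.ofAdd (1, 0), .ofAdd (0, 1)} ?_ ?_
  · by_cases hl : l < 32
    · rw [mul_inv_eq_iff_eq_mul, ← L0.ev_map _ sh, ← L0.ev_append, ← C.g_eq (conjW l hl)]; simp [mul_assoc]
    · rw [nthN_eq, List.getD_eq_default _ _ (not_lt.1 hl), rwd_zero, sh_ge hl,
        show gS x ω 36 = 1 from Subtype.ext (C.coe_g 36), mul_one, mul_inv_cancel, L0.ev_nil]
  · rw [← L0.ev_append, show [0, 1, 2, 3] ++ _ = [0, 1, 2, 3, 0, 1, 2, 3] from rfl, C.g_eq sqW, L0.ev_map]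
    exact L0.ev_mem _ _ fun l _ => Subgroup.subset_closure ⟨l, rfl⟩
  · refine eq_top_iff.2 fun a _ => ?_
    obtain ⟨m, -, n, -, rfl⟩ := (by decide : ∀ a : Multiplicative (ZMod 2 × ZMod 2), ∃ m < 2, ∃ n < 2,
      a = .ofAdd (1, 0) ^ m * .ofAdd (0, 1) ^ n) a
    exact mul_mem (pow_mem (Subgroup.subset_closure (by simp)) _) (pow_mem (Subgroup.subset_closure (by simp)) _)
  intro z hz
  obtain ⟨w, w1, w2⟩ : ∃ w ∈ WT, ∀ c < 3, eqm (w.flatMap (hw c)) [cA z] = true := by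
    obtain rfl | rfl := hz
    exacts [⟨_, by decide, fun c hc => (tauM c hc).1⟩, ⟨_, by decide, fun c hc => (tauM c hc).2⟩]
  obtain ⟨w3, w4⟩ := tauW w w1
  have w5 : ∀ l, Even (w.count l) := fun l => by
    by_cases h : l ∈ w
    exacts [(w4 l h).2, by simp [List.count_eq_zero_of_not_mem h]]
  have w6 : L0.ev (fun l => gS x ω (sh l)) w = 1 := by rw [← L0.ev_map, C.g_eq w3]; rfl
  refine ⟨w, w5, w6, fun Γ _ θ X a b c => ?_, fun y t ht hy => ?_⟩
  · have := pc_ident a b c stT (C.rel rfl relT).1 (C.rel rfl relT).2 (by decide +kernel) idT _ (List.mem_map_of_mem w1)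
    rw [L0.ev_map, L0.ev_map] at this
    rw [L0.ev_flatMap]
    exact (L0.ev_congr fun l hl => by rw [rval, show rwd PT.b PT.n1 (pw 1 (31 - l)) = [l] from rwd_pw one_pos (Nat.le_of_lt_succ (w4 l hl).1)]; simp).trans this
  rw [C.closure_eq] at hy H ⊢
  obtain ⟨u, n, h3, h4, e⟩ := C.fixed ht hy
  obtain ⟨c, hc, h5⟩ := C.torus h4
  obtain ⟨v, rfl⟩ : u ∈ π.range := H.range ▸ h3
  have h6 : ∀ l, y⁻¹ * gS x ω (sh l) * y = π (v * L0.ev Y (hw c l) * v⁻¹) := fun l => by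
    rw [map_mul, map_mul, map_inv, L0.map_ev, L0.ev_congr fun y hy => h1 y ((h5 l).2 y hy), ← (h5 l).1, ← inv_inv y, e]; group
  refine ⟨fun l => h6 l ▸ H.range.le ⟨_, rfl⟩, fun X hX => ?_⟩
  rw [ev_lift (θ := π) (H.ker ▸ by rintro _ ⟨a, rfl⟩; exact Subgroup.mem_center_iff.2 (H.cen a))
    (H.ker ▸ by rintro _ ⟨a, rfl⟩; rw [← map_pow, H.sq, map_one]) (fun l => (hX l).trans (h6 l)) w5]
  refine (L0.map_ev _ (MulAut.conj v) w).symm.trans ?_
  rw [← L0.ev_flatMap, h2 _ z (by simp only [List.mem_flatMap]; rintro y ⟨l, -, h⟩; exact (h5 l).2 y h) (by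
    simp only [L0.ev_flatMap, ← fun l => (h5 l).1]
    exact (L0.map_ev _ (MulAut.conj n) w).symm.trans (by rw [w6, map_one])) (by simpa [j2] using j5 _ _ (w2 c hc)),
    MulAut.conj_apply, H.cen, mul_inv_cancel_right]

end Ctx

theorem hasSchur (hF : Fintype.card K = 4) : HasSchurMultiplier (twistedE6 K 2) (Multiplicative (ZMod 3 × ZMod 2 × ZMod 2)) := by
  refine hasSchur_E62 hF fun hφ h => ?_
  obtain ⟨ω, hω⟩ := exists_pow_ne (K := K) (q := 2) one_lt_two (by omega)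
  have h1 : ω ^ 4 = ω := hF ▸ FiniteField.pow_card ω
  have C : Ctx _ _ _ ω := ⟨hF, hφ, h, mul_left_cancel₀ (sub_ne_zero.2 hω) (by
    linear_combination h1 + (ω - ω ^ 3) * (CharTwo.two_eq_zero (R := K)))⟩
  exact ⟨C.pmult, C.lower⟩

end Cfsg.Agent.H8.E62
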