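import Cfsg.Agent.L0.PcCert

/-! Certificates for central extensions of `2`-groups with kernel of exponent two. -/

set_option autoImplicit false
set_option linter.unusedSectionVars false

namespace Cfsg.Agent.H8

open Cfsg.Agent.L0
open scoped commutatorElement

universe u

/-- Evaluate a number and pass it on. -/
noncomputable def fc {α : Type} (n : ℕ) (d : α) (k : ℕ → α) : α :=
  Nat.rec (motive := fun _ => α) d (fun a _ => k a) (Nat.succ n)

/-- Sum modulo two of the vectors `f y` over the letters of a word. -/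
noncomputable def xorW (f : ℕ → ℕ) (w : List ℕ) (acc : ℕ) : ℕ := List.rec acc (fun y _ ih => Nat.xor (f y) ih) w

/-- Reduce a vector by a list of pivots and vectors. -/
noncomputable def red2 (B : List (ℕ × ℕ)) (v : ℕ) : ℕ :=
  List.rec v (fun b _ ih => fc ih 0 fun a => Bool.rec (Nat.xor b.2 a) a (Nat.beq (Nat.land a b.1) 0)) B

/-- Shift a vector and fill the low bits. -/
noncomputable def slt (v : ℕ) : ℕ := fc v 0 fun a => Nat.add (Nat.shiftLeft a 64) (Nat.mod a 9223372036854775783)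

/-- Reduce a vector. -/
noncomputable def red0 (B : List (ℕ × ℕ)) (v : ℕ) : ℕ := fc (slt v) 0 fun u => Nat.shiftRight (red2 B u) 64

/-- Echelon form. -/
noncomputable def ech2 (f : Con → ℕ) (k : List (ℕ × ℕ) → Bool) (l : List Con) : List (ℕ × ℕ) → Bool :=
  List.rec k (fun c _ ih B => fc (slt (f c)) false fun u => fc (red2 B u) false fun v =>
    fc (Nat.shiftLeft 1 c.C) false fun m => ih ((m, v) :: B)) l

theorem slt_shift (v : ℕ) : Nat.shiftRight (slt v) 64 = v := by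
  change (v <<< 64 + v % 9223372036854775783) >>> 64 = v
  rw [Nat.shiftLeft_eq, Nat.shiftRight_eq_div_pow]; omega

/-- The result of a collection. -/
noncomputable def pcRun (P : PcP) (w : List ℕ) : St := runC (stepC P.p P.b P.n1 P.W P.nb P.wm P.s P.F) P.d ⟨0, w, 0⟩

/-- Compare two collections. -/
noncomputable def cmpN (P : PcP) (w1 w2 : List ℕ) (k : ℕ → ℕ) : ℕ :=
  St.rec (motive := fun _ => ℕ) (fun v1 s1 L1 => List.rec (motive := fun _ => ℕ)
    (St.rec (motive := fun _ => ℕ) (fun v2 s2 L2 => List.rec (motive := fun _ => ℕ)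
      (Bool.rec 0 (k (Nat.xor L1 L2)) (Nat.beq v1 v2)) (fun _ _ _ => 0) s2) (pcRun P w2)) (fun _ _ _ => 0) s1) (pcRun P w1)

/-- The vector of a constraint. -/
noncomputable def conV (P : PcP) (fu : Fus) (c : Con) : ℕ :=
  Nat.land P.msk (Nat.rec (motive := fun _ => ℕ)
    (Bool.rec 0 (cmpN P (c.w ++ [pw P.b (P.n1 - c.j), pw P.b (P.n1 - c.i)]) (c.w ++ [pw P.b (P.n1 - c.i), P.R c.i c.j])
      (Nat.xor (unitV P.s (tri c.i c.j)))) (Nat.blt c.i c.j && Nat.ble c.j P.n1))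
    (fun t _ => Nat.rec (motive := fun _ => ℕ)
      (Bool.rec 0 (cmpN P (c.w ++ [pw P.b (P.n1 - c.i), pw P.b (P.n1 - c.i)]) (c.w ++ [P.R c.i c.i])
        (Nat.xor (unitV P.s (tri c.i c.i)))) (Nat.ble c.i P.n1))
      (fun t _ => Nat.rec (motive := fun _ => ℕ)
        (Bool.rec 0 (cmpN P (c.w.map (nthN fu.U)) (c.w2.map (nthN fu.U)) fun L =>
          cmpN P (c.w.map (nthN fu.V)) (c.w2.map (nthN fu.V)) fun L' =>
            xorW (fun t => unitV P.s (Nat.add P.nT t)) (c.w ++ c.w2) (Nat.xor L L'))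
          (P.fusW fu c.i c.w && P.fusW fu c.i c.w2))
        (fun _ _ => cmpN P c.w c.w2 fun L => L) t) t) c.tag)

/-- Static conditions. -/
noncomputable def stat2 (P : PcP) : Bool :=
  Nat.blt 0 P.b && Nat.blt 0 P.s && Nat.beq P.p 2 && Nat.ble P.nT P.nU && Nat.blt P.K (2 ^ P.s) &&
    allL (List.range P.nU) fun r => P.msk.testBit (P.s * r)

section
variable {A : Type u} [CommGroup A] {z : ℕ → A} {s n : ℕ}

variable (z s n) in
/-- The value of a vector. -/
def zb (L : ℕ) : A := ∏ r ∈ Finset.range n, if L.testBit (s * r) then z r else 1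

theorem zb_zero : zb z s n 0 = 1 := by simp [zb]

theorem zb_mem (B : Subgroup A) (hz : ∀ r, z r ∈ B) (L : ℕ) : zb z s n L ∈ B :=
  Subgroup.prod_mem _ fun r _ => by split_ifs; exacts [hz r, one_mem _]

theorem zb_land {m : ℕ} (hm : ∀ r < n, m.testBit (s * r) = true) (L : ℕ) : zb z s n (Nat.land m L) = zb z s n L :=
  Finset.prod_congr rfl fun r hr => by
    rw [show Nat.land m L = m &&& L from rfl, Nat.testBit_and, hm r (Finset.mem_range.1 hr), Bool.true_and]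

variable (h2 : ∀ r, z r * z r = 1)
include h2

theorem zb_xor (a b : ℕ) : zb z s n (Nat.xor a b) = zb z s n a * zb z s n b := by
  rw [zb, zb, zb, ← Finset.prod_mul_distrib]
  refine Finset.prod_congr rfl fun r _ => ?_
  rw [show Nat.xor a b = a ^^^ b from rfl, Nat.testBit_xor]
  cases a.testBit (s * r) <;> cases b.testBit (s * r) <;> simp [h2]

theorem zb_sq (a : ℕ) : zb z s n a * zb z s n a = 1 := by
  rw [← zb_xor h2, show Nat.xor a a = 0 from Nat.xor_self a, zb_zero]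

theorem dc_eq_zb (hs : 0 < s) (L : ℕ) : dc z s n L = zb z s n L := Finset.prod_congr rfl fun r _ => by
  rw [pow_eq_pow_mod _ ((pow_two _).trans (h2 r)), dgt, Nat.mod_mod_of_dvd _ (dvd_pow_self 2 hs.ne'), ← pow_mul,
    Nat.testBit_eq_decide_div_mod_eq]
  obtain h | h := Nat.mod_two_eq_zero_or_one (L / 2 ^ (s * r)) <;> simp [h]

theorem zb_xorW (f : ℕ → ℕ) (w : List ℕ) (acc : ℕ) :
    zb z s n (xorW f w acc) = L0.ev (fun y => zb z s n (f y)) w * zb z s n acc := by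
  induction w with
  | nil => simp [xorW]
  | cons y w ih => rw [L0.ev_cons, mul_assoc, ← ih, ← zb_xor h2]; rfl

theorem zb_red {B : List (ℕ × ℕ)} (hB : ∀ b ∈ B, zb z s n (Nat.shiftRight b.2 64) = 1) (v : ℕ) :
    zb z s n (red0 B v) = zb z s n v := by
  induction B with
  | nil => exact congrArg _ (slt_shift v)
  | cons b B ih =>
    change zb z s n (Nat.shiftRight (Bool.rec (Nat.xor b.2 (red2 B (slt v))) (red2 B (slt v))
      (Nat.beq (Nat.land (red2 B (slt v)) b.1) 0)) 64) = _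
    rw [← ih fun b hb => hB b (by simp [hb])]
    cases Nat.beq (Nat.land (red2 B (slt v)) b.1) 0
    · exact (congrArg _ Nat.shiftRight_xor_distrib).trans ((zb_xor h2 _ _).trans
        ((congrArg (· * _) (hB b (by simp))).trans (one_mul _)))
    · rfl

theorem ech_spec {f : Con → ℕ} {k : List (ℕ × ℕ) → Bool} {l : List Con} (hl : ∀ c ∈ l, zb z s n (f c) = 1)
    {B : List (ℕ × ℕ)} (hB : ∀ b ∈ B, zb z s n (Nat.shiftRight b.2 64) = 1) (h : ech2 f k l B = true) :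
    ∃ B, (∀ b ∈ B, zb z s n (Nat.shiftRight b.2 64) = 1) ∧ k B = true := by
  induction l generalizing B with
  | nil => exact ⟨B, hB, h⟩
  | cons c l ih =>
    exact ih (fun c hc => hl c (by simp [hc])) (B := (_, red2 B (slt (f c))) :: B)
      (List.forall_mem_cons.2 ⟨(zb_red h2 hB _).trans (hl c (by simp)), hB⟩) h

end

variable {P : PcP} {fu : Fus} {Γ A : Type u} [Group Γ] [CommGroup A] {x : ℕ → Γ} {ι : A →* Γ} {z : ℕ → A}

variable (P fu x ι z) in
/-- The hypotheses on the tails. -/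
structure Hyp3 : Prop extends P.Hyp x ι z where
  inj : Function.Injective ι
  sq : ∀ r, z r * z r = 1
  two : P.p = 2
  big : P.K < 2 ^ P.s
  msk : ∀ r < P.nU, P.msk.testBit (P.s * r) = true
  fus : ∀ t, rval x P.b P.n1 (nthN fu.U t) * x (nthN fu.F t) =
    x (nthN fu.F t) * rval x P.b P.n1 (nthN fu.V t) * ι (z (P.nT + t))

namespace Hyp3

variable (h : Hyp3 P fu x ι z)
include h

theorem unit {r : ℕ} (hr : r < P.nU) : zb z P.s P.nU (unitV P.s r) = z r :=
  (dc_eq_zb h.sq h.spos _).symm.trans (dc_unit z h.spos hr)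

theorem run {w : List ℕ} {v L : ℕ} (e : pcRun P w = ⟨v, [], L⟩) :
    L0.ev (rval x P.b P.n1) w = valV x P.b v * ι (zb z P.s P.nU L) := by
  obtain ⟨v', L', -, h1, h2⟩ := PcP.coll_spec h.toHyp h.big (w := w) (k := fun v' L' => Nat.beq v' v && Nat.beq L' L) (by
    rw [PcP.coll, show runC _ _ _ = _ from e]; simp)
  simp only [Bool.and_eq_true, Nat.beq_eq] at h2
  rw [← h1, h2.1, h2.2, dc_eq_zb h.sq h.spos]

theorem cmp (w1 w2 : List ℕ) (k : ℕ → ℕ) : cmpN P w1 w2 k = 0 ∨ ∃ L, cmpN P w1 w2 k = k L ∧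
    L0.ev (rval x P.b P.n1) w1 = L0.ev (rval x P.b P.n1) w2 * ι (zb z P.s P.nU L) := by
  unfold cmpN
  rcases e1 : pcRun P w1 with ⟨v1, _ | _, L1⟩
  · rcases e2 : pcRun P w2 with ⟨v2, _ | _, L2⟩
    · cases e : Nat.beq v1 v2
      · exact Or.inl (by simp only [e])
      · refine Or.inr ⟨Nat.xor L1 L2, by simp only [e], ?_⟩
        rw [h.run e1, h.run e2, Nat.eq_of_beq_eq_true e, mul_assoc, ← map_mul, zb_xor h.sq, mul_left_comm, zb_sq h.sq, mul_one]
    · exact Or.inl rfl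
  · exact Or.inl rfl

theorem cmp_one {w1 w2 : List ℕ} {k : ℕ → ℕ} {a : A} (e : L0.ev (rval x P.b P.n1) w1 = L0.ev (rval x P.b P.n1) w2 * ι a)
    (hk : ∀ L, zb z P.s P.nU L = a → zb z P.s P.nU (k L) = 1) : zb z P.s P.nU (cmpN P w1 w2 k) = 1 := by
  obtain h1 | ⟨L, h1, h2⟩ := h.cmp w1 w2 k
  · rw [h1, zb_zero]
  · rw [h1, hk L (h.inj (mul_left_cancel (h2.symm.trans e)))]

theorem ev_fus {f : ℕ} (w : List ℕ) (hw : ∀ t ∈ w, nthN fu.F t = f) :
    L0.ev (rval x P.b P.n1) (w.map (nthN fu.U)) * x f =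
      x f * L0.ev (rval x P.b P.n1) (w.map (nthN fu.V)) * ι (L0.ev (fun t => z (P.nT + t)) w) := by
  induction w with
  | nil => simp
  | cons t w ih =>
    have h1 := h.fus t
    rw [hw t (by simp)] at h1
    simp only [List.map_cons, L0.ev_cons, map_mul]
    rw [mul_assoc, ih (fun t ht => hw t (by simp [ht])), ← mul_assoc, ← mul_assoc, h1]
    simp only [mul_assoc]
    rw [← mul_assoc (ι (z _)), ← h.toHyp.comm (z _), mul_assoc]

theorem con {c : Con} (hc : 3 ≤ c.tag → L0.ev (rval x P.b P.n1) c.w = L0.ev (rval x P.b P.n1) c.w2) :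
    zb z P.s P.nU (conV P fu c) = 1 := by
  have h0 : ∀ {b : Bool} {v : ℕ}, (b = true → zb z P.s P.nU v = 1) → zb z P.s P.nU (Bool.rec 0 v b) = 1 := fun {b v} hb => by
    cases b
    exacts [zb_zero, hb rfl]
  have h1 : ∀ r < P.nU, ∀ L, zb z P.s P.nU L = z r → zb z P.s P.nU (Nat.xor (unitV P.s r) L) = 1 := fun r hr L e => by
    rw [zb_xor h.sq, h.unit hr, e, h.sq]
  rw [conV, zb_land h.msk]
  rcases ht : c.tag with _ | _ | _ | t
  · refine h0 fun hb => ?_
    simp only [Bool.and_eq_true, Nat.blt_eq, Nat.ble_eq] at hb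
    refine h.cmp_one ?_ (h1 _ (lt_of_lt_of_le (tri_lt hb.1.le (Nat.lt_succ_of_le hb.2)) h.nU))
    simp only [L0.ev_append, L0.ev_cons, L0.ev_nil, mul_one, rval, rwd_pw h.bpos hb.2, rwd_pw h.bpos (hb.1.le.trans hb.2)]
    rw [h.conj _ _ hb.1 hb.2]
    simp only [rval, mul_assoc]
  · refine h0 fun hb => ?_
    rw [Nat.ble_eq] at hb
    refine h.cmp_one ?_ (h1 _ (lt_of_lt_of_le (tri_lt le_rfl (Nat.lt_succ_of_le hb)) h.nU))
    simp only [L0.ev_append, L0.ev_cons, L0.ev_nil, mul_one, rval, rwd_pw h.bpos hb]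
    rw [← pow_two, ← h.two, h.pow _ hb, rval, mul_assoc]
  · refine h0 fun hb => ?_
    simp only [Bool.and_eq_true, PcP.fusW, allL_iff, Nat.beq_eq, Nat.blt_eq] at hb
    obtain h2 | ⟨L, h2, h3⟩ := h.cmp (c.w.map (nthN fu.U)) (c.w2.map (nthN fu.U)) fun L =>
      cmpN P (c.w.map (nthN fu.V)) (c.w2.map (nthN fu.V)) fun L' =>
        xorW (fun t => unitV P.s (Nat.add P.nT t)) (c.w ++ c.w2) (Nat.xor L L')
    · rw [h2, zb_zero]
    have f1 := h.ev_fus c.w fun t ht => (hb.1.2 t ht).1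
    rw [h3, mul_assoc, ← h.toHyp.comm, ← mul_assoc, h.ev_fus c.w2 fun t ht => (hb.2.2 t ht).1, mul_assoc, mul_assoc,
      mul_assoc, mul_right_inj, ← mul_inv_eq_iff_eq_mul, mul_assoc, ← map_inv, ← map_mul, ← map_mul] at f1
    rw [h2]
    refine h.cmp_one f1.symm fun L' e => ?_
    rw [zb_xorW h.sq, zb_xor h.sq, e, L0.ev_congr (x := fun t => zb z P.s P.nU (unitV P.s (P.nT.add t))) (x' := fun t => z (P.nT + t))
      fun t ht => h.unit ((List.mem_append.1 ht).elim (fun h => (hb.1.2 t h).2) fun h => (hb.2.2 t h).2), L0.ev_append]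
    have h4 : ∀ a b c : A, a * b * (c * (b * c * a⁻¹)) = b * b * (c * c) := fun a b c => by
      rw [show a * b * (c * (b * c * a⁻¹)) = a * a⁻¹ * (b * b * (c * c)) by ac_rfl, mul_inv_cancel, one_mul]
    rw [h4, zb_sq h.sq, mul_one, ← pow_two, ← powMonoidHom_apply, L0.map_ev, L0.ev_congr (x' := fun _ => 1) fun _ _ => by
      simp [pow_two, h.sq]]
    simp [L0.ev]
  · exact h.cmp_one (a := 1) (by rw [hc (by omega), map_one, mul_one]) fun _ => id

end Hyp3

attribute [local instance] centerCG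

theorem exists_hyp3 {G : Type*} [Group G] {θ : Γ →* G} (hc : θ.ker ≤ Subgroup.center Γ) (h2 : ∀ z ∈ θ.ker, z ^ 2 = 1)
    {g : ℕ → G} (hx : ∀ i, θ (x i) = g i) (hst : stat2 P = true)
    (hconj : ∀ i j, i < j → j ≤ P.n1 → g j * g i = g i * rval g P.b P.n1 (P.R i j))
    (hpow : ∀ i, i ≤ P.n1 → g i ^ P.p = rval g P.b P.n1 (P.R i i))
    (hfus : ∀ t, rval g P.b P.n1 (nthN fu.U t) * g (nthN fu.F t) = g (nthN fu.F t) * rval g P.b P.n1 (nthN fu.V t)) :
    ∃ z : ℕ → Subgroup.center Γ, (∀ r, θ (z r) = 1) ∧ Hyp3 P fu x (Subgroup.center Γ).subtype z := by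
  simp only [stat2, Bool.and_eq_true, Nat.blt_eq, Nat.ble_eq, Nat.beq_eq, allL_iff, List.mem_range] at hst
  obtain ⟨⟨⟨⟨⟨s1, s2⟩, s3⟩, s4⟩, s5⟩, s6⟩ := hst
  have hr : ∀ v, θ (rval x P.b P.n1 v) = rval g P.b P.n1 v := fun v => by simp only [rval, L0.map_ev, hx]
  have h1 : ∀ r, ∃ a ∈ θ.ker, (∀ i j, i < j → j ≤ P.n1 → tri i j = r → x j * x i = x i * rval x P.b P.n1 (P.R i j) * a) ∧
      (∀ i, i ≤ P.n1 → tri i i = r → x i ^ P.p = rval x P.b P.n1 (P.R i i) * a) ∧ ∀ t, P.nT + t = r →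
        rval x P.b P.n1 (nthN fu.U t) * x (nthN fu.F t) = x (nthN fu.F t) * rval x P.b P.n1 (nthN fu.V t) * a := fun r => by
    have h3 : ∀ i j t, i ≤ j → j ≤ P.n1 → tri i j ≠ P.nT + t := fun i j t h1 h2 => by
      have := tri_lt h1 (Nat.lt_add_one_of_le h2)
      unfold PcP.nT; omega
    by_cases a1 : ∃ i j, i < j ∧ j ≤ P.n1 ∧ tri i j = r
    · obtain ⟨i, j, b1, b2, rfl⟩ := a1
      refine ⟨(x i * rval x P.b P.n1 (P.R i j))⁻¹ * (x j * x i), by simp [MonoidHom.mem_ker, hr, hx, hconj i j b1 b2],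
        fun i' j' c1 _ e => ?_, fun i' _ e => ?_, fun t e => absurd e.symm (h3 _ _ _ b1.le b2)⟩
      · obtain ⟨rfl, rfl⟩ := tri_inj c1.le b1.le e
        rw [mul_inv_cancel_left]
      · have := tri_inj le_rfl b1.le e; omega
    by_cases a2 : ∃ i, i ≤ P.n1 ∧ tri i i = r
    · obtain ⟨i, b1, rfl⟩ := a2
      refine ⟨(rval x P.b P.n1 (P.R i i))⁻¹ * x i ^ P.p, by simp [MonoidHom.mem_ker, hr, hx, hpow i b1],
        fun i' j' c1 c2 e => absurd ⟨_, _, c1, c2, e⟩ a1, fun i' _ e => ?_, fun t e => absurd e.symm (h3 _ _ _ le_rfl b1)⟩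
      obtain ⟨rfl, -⟩ := tri_inj le_rfl le_rfl e
      rw [mul_inv_cancel_left]
    refine ⟨(x (nthN fu.F (r - P.nT)) * rval x P.b P.n1 (nthN fu.V (r - P.nT)))⁻¹ *
      (rval x P.b P.n1 (nthN fu.U (r - P.nT)) * x (nthN fu.F (r - P.nT))), by simp [MonoidHom.mem_ker, hr, hx, hfus],
      fun i j c1 c2 e => absurd ⟨_, _, c1, c2, e⟩ a1, fun i c1 e => absurd ⟨_, c1, e⟩ a2, ?_⟩
    rintro t rfl
    rw [Nat.add_sub_cancel_left, mul_inv_cancel_left]
  choose z z1 z2 z3 z4 using h1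
  exact ⟨fun r => ⟨z r, hc (z1 r)⟩, z1, ⟨s1, s2, s3 ▸ Nat.le_self_pow s1.ne' 2, s4, fun a => a.2, fun i j h1 h2 => z2 _ i j h1 h2 rfl,
    fun i h1 => z3 _ i h1 rfl⟩, Subtype.val_injective, fun r => Subtype.ext ((pow_two _).symm.trans (h2 _ (z1 r))), s3, s5, s6,
    fun t => z4 _ t rfl⟩

/-- Two words agree in every central extension with kernel of exponent two. -/
noncomputable def idOk (P : PcP) (W : List (List ℕ × List ℕ)) (B : List (ℕ × ℕ)) : Bool :=
  allL W fun w => Nat.beq (cmpN P w.1 w.2 fun L => Nat.succ (red0 B (Nat.land P.msk L))) 1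

theorem pc_ident {G : Type*} [Group G] {θ : Γ →* G} (hc : θ.ker ≤ Subgroup.center Γ) (h2 : ∀ z ∈ θ.ker, z ^ 2 = 1)
    {g : ℕ → G} (hx : ∀ i, θ (x i) = g i) (hst : stat2 P = true)
    (hconj : ∀ i j, i < j → j ≤ P.n1 → g j * g i = g i * rval g P.b P.n1 (P.R i j))
    (hpow : ∀ i, i ≤ P.n1 → g i ^ P.p = rval g P.b P.n1 (P.R i i)) {CC : List Con} (hC : allL CC (fun c => Nat.blt c.tag 3) = true)
    {W : List (List ℕ × List ℕ)} (h : ech2 (conV P ⟨[], [], []⟩) (idOk P W) CC [] = true) :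
    ∀ w ∈ W, L0.ev (rval x P.b P.n1) w.1 = L0.ev (rval x P.b P.n1) w.2 := fun w hw => by
  obtain ⟨z, -, H⟩ := exists_hyp3 (fu := ⟨[], [], []⟩) hc h2 hx hst hconj hpow fun t => by simp [nthN_eq, rval, rwd_zero]
  obtain ⟨B, h3, h4⟩ := ech_spec H.sq (fun c hc => H.con fun h => absurd ((allL_iff _ _).1 hC c hc) (by simpa using h)) (by simp) h
  have h5 := Nat.eq_of_beq_eq_true ((allL_iff _ _).1 h4 w hw)
  obtain h6 | ⟨L, h6, h7⟩ := H.cmp w.1 w.2 fun L => Nat.succ (red0 B (Nat.land P.msk L))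
  · omega
  · rw [h7, ← zb_land H.msk, ← zb_red H.sq h3, show red0 B _ = 0 from Nat.succ.inj (h6.symm.trans h5), zb_zero, map_one, mul_one]

/-- The corrected lifts satisfy the relations. -/
noncomputable def splitOk (P : PcP) (lam : List ℕ) (B : List (ℕ × ℕ)) : Bool :=
  allL (List.range (P.n1 + 1)) fun j => allL (List.range (j + 1)) fun i => Nat.blt (P.R i j) (pw P.b (P.n1 - i)) &&
    Nat.beq (red0 B (xorW (nthN lam) (rwd P.b P.n1 (P.R i j)) (Nat.xor (unitV P.s (tri i j)) (Bool.rec (nthN lam j) 0 (Nat.beq i j))))) 0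

variable {G : Type u} [Group G] [Finite G] {g : ℕ → G} (hst : stat2 P = true)
  (hconj : ∀ i j, i < j → j ≤ P.n1 → g j * g i = g i * rval g P.b P.n1 (P.R i j))
  (hpow : ∀ i, i ≤ P.n1 → g i ^ P.p = rval g P.b P.n1 (P.R i i))
  (hfus : ∀ t, rval g P.b P.n1 (nthN fu.U t) * g (nthN fu.F t) = g (nthN fu.F t) * rval g P.b P.n1 (nthN fu.V t))
  (hcard : 2 ^ (P.n1 + 1) ≤ Nat.card (Subgroup.closure (g '' {y | y < P.n1 + 1})))
  (hN : Odd (Subgroup.closure (g '' {y | y < P.n1 + 1})).index) {lam : List ℕ} {CC : List Con}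
  (h : ech2 (conV P fu) (splitOk P lam) CC [] = true)
include hst hconj hpow hfus hcard hN h

theorem ker_eq_bot_of_cert [Finite Γ] {θ : Γ →* G} (hθ : IsStemExtension θ) (h2 : ∀ z ∈ θ.ker, z ^ 2 = 1) (hx : ∀ i, θ (x i) = g i)
    (hC : ∀ c ∈ CC, 3 ≤ c.tag → L0.ev (rval x P.b P.n1) c.w = L0.ev (rval x P.b P.n1) c.w2) : θ.ker = ⊥ := by
  obtain ⟨z, h1, H⟩ := exists_hyp3 hθ.2.1 h2 hx hst hconj hpow hfus
  obtain ⟨B, h3, h4⟩ := ech_spec H.sq (fun c hc => H.con (hC c hc)) (by simp) h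
  let l : ℕ → Subgroup.center Γ := fun i => zb z P.s P.nU (nthN lam i)
  let Y : ℕ → Γ := fun i => x i * (Subgroup.center Γ).subtype (l i)
  have hY := ev_mul_central x _ H.cent l
  have h5 : ∀ i j, i ≤ j → j ≤ P.n1 → L0.ev Y (rwd P.b P.n1 (P.R i j)) ∈ Subgroup.closure (Y '' {y | i < y ∧ y < P.n1 + 1}) ∧
      L0.ev l (rwd P.b P.n1 (P.R i j)) = z (tri i j) * if i = j then 1 else l j := fun i j a1 a2 => by
    have := (allL_iff _ _).1 ((allL_iff _ _).1 h4 j (List.mem_range.2 (by omega))) i (List.mem_range.2 (by omega))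
    rw [Bool.and_eq_true, Nat.blt_eq] at this
    refine ⟨L0.ev_mem _ _ fun y hy => Subgroup.subset_closure ⟨y, (rwd_letters H.bpos _ this.1 y hy).imp_right
      Nat.lt_succ_of_le, rfl⟩, ?_⟩
    have h6 := zb_red (s := P.s) (n := P.nU) H.sq h3 (xorW (nthN lam) (rwd P.b P.n1 (P.R i j))
      (Nat.xor (unitV P.s (tri i j)) (Bool.rec (nthN lam j) 0 (Nat.beq i j))))
    rw [Nat.eq_of_beq_eq_true this.2, zb_zero, zb_xorW H.sq, eq_comm, mul_eq_one_iff_eq_inv,
      inv_eq_of_mul_eq_one_right (zb_sq H.sq _), zb_xor H.sq, H.unit (lt_of_lt_of_le (tri_lt a1 (by omega)) H.nU)] at h6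
    rw [h6]
    split_ifs with e
    · rw [e, Nat.beq_refl, zb_zero]
    · rw [show Nat.beq i j = false from Bool.eq_false_iff.2 fun h => e (Nat.eq_of_beq_eq_true h)]
  have h6 := card_pc_le Y (n := P.n1 + 1) two_pos (fun i j a1 a2 => by
      have h7 : L0.ev Y [j, i] = L0.ev Y (i :: rwd P.b P.n1 (P.R i j)) := by
        rw [hY, hY]
        simp only [L0.ev_cons, L0.ev_nil, mul_one]
        rw [H.conj i j a1 (by omega), (h5 i j a1.le (by omega)).2, if_neg a1.ne, mul_assoc, ← map_mul, mul_comm (l i), mul_assoc (z _)]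
        rfl
      simp only [L0.ev_cons, L0.ev_nil, mul_one] at h7
      rw [mul_assoc, h7, inv_mul_cancel_left]
      exact (h5 i j a1.le (by omega)).1)
    (fun i a1 => by
      have h7 : L0.ev Y [i, i] = L0.ev Y (rwd P.b P.n1 (P.R i i)) := by
        rw [hY, hY]
        simp only [L0.ev_cons, L0.ev_nil, mul_one]
        rw [← pow_two, ← H.two, H.pow i (by omega), (h5 i i le_rfl (by omega)).2, if_pos rfl, zb_sq H.sq, map_one, mul_one, mul_one]
        rfl
      simp only [L0.ev_cons, L0.ev_nil, mul_one] at h7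
      rw [pow_two, h7]
      exact (h5 i i le_rfl (by omega)).1)
  have h7 : (Subgroup.closure (Y '' {y | y < P.n1 + 1})).map θ = Subgroup.closure (g '' {y | y < P.n1 + 1}) := by
    rw [MonoidHom.map_closure, Set.image_image]
    congr 2
    ext i
    simp [Y, hx, show θ (l i) = 1 from (zb_mem (θ.ker.subgroupOf _) h1 _ : l i ∈ _)]
  exact ker_eq_bot_of_split hθ h2 _ (h7 ▸ Nat.coprime_two_right.2 hN) (h7 ▸ h6.trans hcard)

theorem pmult_two {a b : ℕ → ℕ} (ha : ∀ i, rval g P.b P.n1 (a i) ^ 2 = 1)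
    (hab : ∀ i, Commute (rval g P.b P.n1 (a i)) (rval g P.b P.n1 (b i))) {k : ℕ}
    (hC : ∀ c ∈ CC, 3 ≤ c.tag → ∃ i < k, c.w = [a i, b i] ∧ c.w2 = [b i, a i]) : PMult G 2 1 k := by
  intro Γ _ _ θ hθ h4
  choose x hx using fun i => hθ.1 (g i)
  have hr : ∀ v, θ (rval x P.b P.n1 v) = rval g P.b P.n1 v := fun v => by simp only [rval, L0.map_ev, hx]
  let L : ℕ → Γ := fun i => ⁅rval x P.b P.n1 (a i), rval x P.b P.n1 (b i)⁆
  have h1 : ∀ i, L i ∈ θ.ker := fun i => by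
    simpa only [MonoidHom.mem_ker, L, map_commutatorElement, hr, commutatorElement_eq_one_iff_commute] using hab i
  have hc : ∀ a ∈ θ.ker, ∀ b, Commute b a := fun a ha b => Subgroup.mem_center_iff.1 (hθ.2.1 ha) b
  have h2 : Subgroup.closure (L '' {i | i < k}) ≤ θ.ker := (Subgroup.closure_le _).2 (by rintro _ ⟨i, -, rfl⟩; exact h1 i)
  let B : Subgroup Γ :=
    { carrier := {y | ∃ c ∈ Subgroup.closure (L '' {i | i < k}), ∃ d ∈ θ.ker, y = c * d ^ 2}
      one_mem' := ⟨1, one_mem _, 1, one_mem _, by simp⟩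
      mul_mem' := by
        rintro _ _ ⟨c, hc1, d, hd, rfl⟩ ⟨c', hc', d', hd', rfl⟩
        exact ⟨c * c', mul_mem hc1 hc', d * d', mul_mem hd hd', by
          rw [(hc _ hd' d).mul_pow, mul_assoc, mul_assoc, ← mul_assoc c', (hc _ (pow_mem hd 2) c').eq, mul_assoc]⟩
      inv_mem' := by
        rintro _ ⟨c, hc1, d, hd, rfl⟩
        exact ⟨c⁻¹, inv_mem hc1, d⁻¹, inv_mem hd, by rw [(hc _ (pow_mem hd 2) c).eq, mul_inv_rev, inv_pow]⟩ }
  have hB : B ≤ θ.ker := by rintro _ ⟨c, hc, d, hd, rfl⟩; exact mul_mem (h2 hc) (pow_mem hd 2)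
  have : B.Normal := normal_of_le_center (hB.trans hθ.2.1)
  have h5 := ker_eq_bot_of_cert hst hconj hpow hfus hcard hN h (x := fun i => QuotientGroup.mk' B (x i)) (stem_quot hθ B hB)
    (fun z hz => by
      obtain ⟨y, rfl⟩ := QuotientGroup.mk_surjective z
      rw [← QuotientGroup.mk_pow, QuotientGroup.eq_one_iff]
      exact ⟨1, one_mem _, y, (mem_ker_quot B hB).1 hz, (one_mul _).symm⟩) hx fun c hc h3 => by
      obtain ⟨i, hi, e1, e2⟩ := hC c hc h3
      simp only [e1, e2, L0.ev_cons, L0.ev_nil, mul_one, rval, ← L0.map_ev]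
      rw [← commutatorElement_eq_one_iff_mul_comm, ← map_commutatorElement]
      exact (QuotientGroup.eq_one_iff _).2 ⟨_, Subgroup.subset_closure ⟨i, hi, rfl⟩, 1, one_mem _, by simp [L, rval]⟩
  have h6 : θ.ker ≤ B := fun y hy => (QuotientGroup.eq_one_iff y).1 (h5.le ((mem_ker_quot B hB).2 hy))
  refine ⟨L, fun i => ⟨h1 i, ?_⟩, fun y hy => ?_⟩
  · have h7 := hc _ (show rval x P.b P.n1 (a i) ^ 2 ∈ θ.ker by rw [MonoidHom.mem_ker, map_pow, hr, ha]) (rval x P.b P.n1 (b i))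
    have h8 := hc _ (h1 i) (rval x P.b P.n1 (a i))
    simp only [L, pow_one] at h8 ⊢
    generalize rval x P.b P.n1 (a i) = u at h7 h8
    generalize rval x P.b P.n1 (b i) = v at h7 h8
    calc _ = u * ⁅u, v⁆ * u⁻¹ * ⁅u, v⁆ := by rw [h8.eq, mul_inv_cancel_right, pow_two]
      _ = u ^ 2 * v * (u ^ 2)⁻¹ * v⁻¹ := by rw [commutatorElement_def, pow_two]; group
      _ = 1 := by rw [← h7.eq]; group
  · obtain ⟨c, hc1, d, hd, rfl⟩ := h6 hy
    obtain ⟨c', hc', d', hd', rfl⟩ := h6 hd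
    rw [(hc _ (pow_mem hd' 2) c').mul_pow, ← pow_mul, show d' ^ (2 * 2) = 1 from h4 _ hd', mul_one]
    exact mul_mem hc1 (pow_mem hc' 2)

end Cfsg.Agent.H8
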