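import Cfsg.Agent.H8.TwP
import Cfsg.Agent.H2.SzSub

/-! The four dimensional representation of the type `B2` in characteristic two. -/

set_option autoImplicit false
set_option linter.unusedSectionVars false

namespace Cfsg.Agent.H8

open Cfsg.Lie Matrix Cfsg.Agent.H7
open scoped MatrixGroups

variable {K : Type*} [Field K]

theorem mul_fin_four (a00 a01 a02 a03 a10 a11 a12 a13 a20 a21 a22 a23 a30 a31 a32 a33
    b00 b01 b02 b03 b10 b11 b12 b13 b20 b21 b22 b23 b30 b31 b32 b33 : K) :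
    !![a00, a01, a02, a03; a10, a11, a12, a13; a20, a21, a22, a23; a30, a31, a32, a33] *
    !![b00, b01, b02, b03; b10, b11, b12, b13; b20, b21, b22, b23; b30, b31, b32, b33] =
    !![a00 * b00 + a01 * b10 + a02 * b20 + a03 * b30, a00 * b01 + a01 * b11 + a02 * b21 + a03 * b31,
      a00 * b02 + a01 * b12 + a02 * b22 + a03 * b32, a00 * b03 + a01 * b13 + a02 * b23 + a03 * b33;
      a10 * b00 + a11 * b10 + a12 * b20 + a13 * b30, a10 * b01 + a11 * b11 + a12 * b21 + a13 * b31,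
      a10 * b02 + a11 * b12 + a12 * b22 + a13 * b32, a10 * b03 + a11 * b13 + a12 * b23 + a13 * b33;
      a20 * b00 + a21 * b10 + a22 * b20 + a23 * b30, a20 * b01 + a21 * b11 + a22 * b21 + a23 * b31,
      a20 * b02 + a21 * b12 + a22 * b22 + a23 * b32, a20 * b03 + a21 * b13 + a22 * b23 + a23 * b33;
      a30 * b00 + a31 * b10 + a32 * b20 + a33 * b30, a30 * b01 + a31 * b11 + a32 * b21 + a33 * b31,
      a30 * b02 + a31 * b12 + a32 * b22 + a33 * b32, a30 * b03 + a31 * b13 + a32 * b23 + a33 * b33] := by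
  ext i j
  fin_cases i <;> fin_cases j <;> exact H2.Suz.mul4 _ _ _ _

/-- The matrices of the root elements. -/
def spM (f : ℕ → K) : Matrix (Fin 4) (Fin 4) K := !![1, f 5, f 6, f 7; f 2, 1, f 4, f 6; f 1, f 3, 1, f 5; f 0, f 1, f 2, 1]

variable (K) in
/-- The root elements. -/
def spY (r : ℕ) (t : K) : SL(4, K) := ⟨spM fun k => if k = r then t else 0, by
  by_cases h : r < 4
  · rw [Matrix.det_of_isLowerTriangular]
    · simp [spM, Fin.prod_univ_four]
    · intro i j hij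
      fin_cases i <;> fin_cases j <;> first | exact absurd hij (by decide) | simp [spM]; omega
  · rw [Matrix.det_of_isUpperTriangular]
    · simp [spM, Fin.prod_univ_four]
    · intro i j hij
      fin_cases i <;> fin_cases j <;> first | exact absurd hij (by decide) | simp [spM]; omega⟩

theorem spY_val (r : ℕ) (t : K) : (spY K r t : Matrix (Fin 4) (Fin 4) K) = spM fun k => if k = r then t else 0 := rfl

theorem spY_out {r : ℕ} (hr : 8 ≤ r) (t : K) : spY K r t = 1 := Subtype.ext (by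
  ext i j
  fin_cases i <;> fin_cases j <;> simp [spY_val, spM] <;> omega)

theorem spY_add (r : ℕ) (t u : K) : spY K r (t + u) = spY K r t * spY K r u := by
  by_cases h : r < 8
  · refine Subtype.ext ?_
    interval_cases r <;> simp [spY_val, spM, mul_fin_four, add_comm]
  · simp [spY_out (not_lt.1 h)]

/-- The commutator terms. -/
def ctB2 (r s : ℕ) : List (ℕ × ℤ × ℕ × ℕ) := (([[[], [], [], [], [], [(1, 1, 1, 1), (3, -1, 1, 2)], [(2, -1, 1, 1), (4, 1, 1, 2)], []],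
  [[], [], [(0, 2, 1, 1)], [], [(2, 1, 1, 1), (0, 1, 2, 1)], [(3, -2, 1, 1)], [], [(5, -1, 1, 1), (3, 1, 2, 1)]],
  [[], [(0, -2, 1, 1)], [], [(1, 1, 1, 1), (0, -1, 2, 1)], [], [], [(4, -2, 1, 1)], [(6, 1, 1, 1), (4, -1, 2, 1)]],
  [[], [], [(1, -1, 1, 1), (0, -1, 1, 2)], [], [], [], [(5, 1, 1, 1), (7, 1, 1, 2)], []],
  [[], [(2, -1, 1, 1), (0, 1, 1, 2)], [], [], [], [(6, 1, 1, 1), (7, -1, 1, 2)], [], []],
  [[(1, -1, 1, 1), (3, -1, 2, 1)], [(3, 2, 1, 1)], [], [], [(6, -1, 1, 1), (7, -1, 2, 1)], [], [(7, 2, 1, 1)], []],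
  [[(2, 1, 1, 1), (4, 1, 2, 1)], [], [(4, 2, 1, 1)], [(5, -1, 1, 1), (7, 1, 2, 1)], [], [(7, -2, 1, 1)], [], []],
  [[], [(5, 1, 1, 1), (3, 1, 1, 2)], [(6, -1, 1, 1), (4, -1, 1, 2)], [], [], [], [], []]] : List (List (List (ℕ × ℤ × ℕ × ℕ)))).getD r []).getD s []

variable [CharP K 2]

set_option synthInstance.maxSize 4000 in
theorem isSt_spY : IsSt chevB2 (spY K) where
  out r hr t := spY_out hr t
  add := spY_add
  comm r s hr hs h1 h2 t u := by
    rw [mul_assoc, mul_assoc, inv_mul_eq_iff_eq_mul, inv_mul_eq_iff_eq_mul, ChevalleyDatum.commWord,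
      (by decide +kernel : ∀ r < 8, ∀ s < 8, s ≠ r → s ≠ chevB2.neg r → chevB2.commTerms r s = ctB2 r s) r hr s hs h1 h2]
    have h3 : (2 : K) = 0 := CharTwo.two_eq_zero
    change r < 8 at hr
    change s < 8 at hs
    refine Subtype.ext ?_
    interval_cases r <;> interval_cases s <;> first | exact absurd rfl h1 | exact absurd (by decide) h2 |
      (simp [ctB2, spY_val, spM, mul_fin_four, h3, CharTwo.neg_eq] <;> grind)

theorem raises_spY {f : Fin 4 → ℤ} {m : ℤ} (hm : 0 < m) {S : Set ℕ} (hS : ∀ r ∈ S, ∀ t, Raises f m (spY K r t).1) {g : SL(4, K)}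
    (hg : g ∈ XS (spY K) S) : Raises f m g.1 := by
  induction hg using Subgroup.closure_induction_left with
  | one => exact fun _ _ _ => rfl
  | mul_left s hs g _ ih => obtain ⟨r, hr, t, rfl⟩ := hs; exact (hS r hr t).mul hm ih
  | inv_mul_cancel s hs g _ ih => obtain ⟨r, hr, t, rfl⟩ := hs; rw [← isSt_spY.neg]; exact (hS r hr _).mul hm ih

/-- The positions of the entries. -/
def spI : Fin 4 → Fin 4 → ℕ := ![![8, 5, 6, 7], ![2, 8, 4, 6], ![1, 3, 8, 5], ![0, 1, 2, 8]]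

omit [CharP K 2] in
theorem raises_one {r : ℕ} {f : Fin 4 → ℤ} {m : ℤ} (h : ∀ c b : Fin 4, f c < f b + m → c = b ∨ r ≠ spI c b) (t : K) :
    Raises f m (spY K r t).1 := fun c b hc => by
  have := h c b hc
  fin_cases c <;> fin_cases b <;> simp [spY_val, spM, spI] at this ⊢ <;> omega

set_option synthInstance.maxSize 4000 in
theorem isFaith_spY [Finite K] : IsFaith chevB2 (spY K) where
  toIsSt := isSt_spY
  top k hk t h := by
    obtain ⟨c, b, h1, h2, m, -, h4, h5, h3⟩ := (by decide +kernel : ∀ k < chevB2.nroots, chevB2.IsPosRoot k → ∃ c b : Fin 4, c < b ∧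
      k = spI c b ∧ ∃ m ∈ [2, 3, 4, (6 : ℤ)], 0 < m ∧ ![5, 3, 2, 0] c < ![5, 3, 2, 0] b + m ∧ ∀ r < chevB2.nroots, k < r →
        ∀ c b : Fin 4, ![5, 3, 2, 0] c < ![5, 3, 2, 0] b + m → c = b ∨ r ≠ spI c b) k hk.1 hk
    have := raises_spY h4 (fun r hr => raises_one (h3 r hr.1.1 hr.2)) h c b h5
    subst h2
    clear h3 h hk h5
    fin_cases c <;> fin_cases b <;> first | exact absurd h1 (by decide) | simpa [spY_val, spM, spI] using this
  inter u hu v hv h hh e := by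
    have h0 := (by decide +kernel : ∀ r < chevB2.nroots, (chevB2.IsPosRoot r → ∀ c b : Fin 4,
      ![3, 2, 1, 0] c < ![3, 2, 1, (0 : ℤ)] b + 1 → c = b ∨ r ≠ spI c b) ∧ (chevB2.IsNegRoot r → ∀ c b : Fin 4,
      ![0, 1, 2, 3] c < ![0, 1, 2, (3 : ℤ)] b + 1 → c = b ∨ r ≠ spI c b))
    have h1 := raises_spY one_pos (fun r hr => raises_one ((h0 r hr.1).1 hr)) hu
    have h2 := raises_spY one_pos (fun r hr => raises_one ((h0 r hr.1).2 hr)) hv
    obtain ⟨a, rfl⟩ := isSt_spY.exists_hProd isSt_spY.R3_of_finite hh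
    obtain ⟨d, hd⟩ : ∃ d, (hProd chevB2 (spY K) a).1 = Matrix.diagonal d := by
      rw [hProd_perm isSt_spY isSt_spY.R3_of_finite a (l := [⟨0, by decide⟩, ⟨1, by decide⟩]) (by decide +kernel)]
      simp only [List.map, List.prod_cons, List.prod_nil, mul_one]
      generalize a ⟨0, _⟩ = s, a ⟨1, _⟩ = t
      refine ⟨![s, (s : K)⁻¹ * t, s * (t : K)⁻¹, (s : K)⁻¹], ?_⟩
      change (hE chevB2 (spY K) 5 s * hE chevB2 (spY K) 4 t).1 = _
      simp [hE, nE, show chevB2.neg 5 = 2 from rfl, show chevB2.neg 4 = 3 from rfl, spY_val, spM, mul_fin_four]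
      ext i j
      fin_cases i <;> fin_cases j <;> simp
    refine Matrix.SpecialLinearGroup.ext _ _ fun c b => ?_
    by_cases h3 : c < b
    · rw [e, Matrix.SpecialLinearGroup.coe_mul, hd, Matrix.mul_diagonal, h2 c b (by revert c b; decide)]
      simp [h3.ne]
    · exact h1 c b (by revert c b; decide)

theorem spY_u {m : ℕ} [H2.SzF K m] {φ : K →+* K} (hφ : ∀ t, φ t = t ^ 2 ^ m) (h2 : ∀ t, φ (φ t) ^ 2 = t) (s u : K) :
    spY K 5 (φ s) * (spY K 4 s * (spY K 6 (φ s * s + u) * spY K 7 (φ u ^ 2))) = (H2.Suz.u m (φ s) (φ s * s + u)).1 := by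
  have h3 : ∀ t : K, H2.Suz.th m t = φ t ^ 2 := fun t => by rw [hφ, ← pow_mul, ← pow_succ]; rfl
  have h4 : (2 : K) = 0 := CharTwo.two_eq_zero
  refine Subtype.ext ?_
  change _ = H2.Suz.uM m _ _
  simp [spY_val, spM, mul_fin_four, H2.Suz.uM, H2.Suz.ff, h3, h2, CharTwo.add_sq, mul_pow]
  grind

theorem spY_w {m : ℕ} [H2.SzF K m] : spY K 1 1 * spY K 0 1 = (H2.Suz.w K m * H2.Suz.u m 0 1 * H2.Suz.w K m).1 := by
  refine Subtype.ext ?_
  change _ = H2.Suz.wM K * H2.Suz.uM m _ _ * H2.Suz.wM K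
  simp [spY_val, spM, mul_fin_four, H2.Suz.uM, H2.Suz.wM, H2.Suz.ff]

end Cfsg.Agent.H8
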