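import Cfsg.Agent.H8.CycTor
import Cfsg.Agent.H8.Order

/-! Homocyclic Sylow subgroups inside maximal tori. -/

set_option autoImplicit false
set_option linter.unusedSectionVars false

namespace Cfsg.Agent.H8

open Cfsg.Lie Matrix Cfsg.Agent.H7 Finset Polynomial

variable {K : Type*} [Field K] {l : ℕ}

/-- The coefficients of `∏ (X ^ e - 1)` modulo `X ^ d - 1`. -/
def cyG (d : ℕ) : List ℕ → ℕ → ℤ
  | [], k => if k = 0 then 1 else 0
  | e :: E, k => cyG d E ((d - e + k) % d) - cyG d E k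

theorem sum_cyG {d : ℕ} (hd : 0 < d) {t : K} (ht : t ^ d = 1) {E : List ℕ} (hE : ∀ e ∈ E, e < d) :
    ∑ k ∈ range d, cyG d E k * t ^ k = (E.map fun e => t ^ e - 1).prod := by
  induction E with
  | nil => simp [cyG, hd]
  | cons e E ih =>
    have := NeZero.of_pos hd
    rw [List.map_cons, List.prod_cons, ← ih fun e he => hE e (by simp [he]), sub_mul, one_mul]
    simp only [cyG, Int.cast_sub, sub_mul, sum_sub_distrib, sum_range, mul_sum]
    rw [← Equiv.sum_comp (Equiv.addRight (⟨e, hE e (by simp)⟩ : Fin d))]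
    congr 2; funext k
    simp only [Equiv.coe_addRight]
    rw [show (d - e + (k + ⟨e, hE e (by simp)⟩).1) % d = _ from congrArg Fin.val (add_sub_cancel_right k ⟨e, hE e (by simp)⟩),
      Fin.val_add, ← pow_eq_pow_mod _ ht]
    ring

theorem exists_homocyclic [IsAlgClosed K] {q d a m : ℕ} {M : Matrix (Fin l) (Fin l) ℤ} {Y : Fin a → ℕ → Fin l → ℤ}
    (hY : ∀ i, ∀ k < d, Y i k = Y i ((k + 1) % d) ᵥ* M) (hd : 0 < d) {L : Fin a → Fin l → ℤ} {g : ℕ → ℤ}
    (hL : ∀ i j, ∀ k < d, Y i k ⬝ᵥ L j = if i = j then g k else 0) (hm : (m : K) ≠ 0) (h1 : (m : ℤ) ∣ q ^ d - 1)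
    (h2 : IsCoprime (∑ k ∈ range d, g k * q ^ k) m) : ∃ f : (Fin a → Multiplicative (ZMod m)) →* (Fin l → Kˣ),
      Function.Injective f ∧ ∀ c, f c ^ q = mact M (f c) := by
  obtain ⟨ζ, rfl, -⟩ := exists_orderOf hm
  let e := (Subgroup.zpowers ζ).subtype.comp ((zmodCyclicMulEquiv (G := Subgroup.zpowers ζ) inferInstance).toMonoidHom.comp
    (MulEquiv.cast (M := fun n => Multiplicative (ZMod n)) (Nat.card_zpowers ζ).symm).toMonoidHom)
  have he : Function.Injective e := fun a b h => by simpa [e] using h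
  have h3 : ∀ c, e c ^ (orderOf ζ : ℤ) = 1 := fun c => by
    rw [← map_zpow, ← ofAdd_toAdd c, ← ofAdd_zsmul]; simp
  clear_value e
  let z : Fin a → Fin l → ℤ := fun i => ∑ k ∈ range d, (q : ℤ) ^ k • Y i k
  let f : (Fin a → Multiplicative (ZMod (orderOf ζ))) →* (Fin l → Kˣ) :=
    ∏ i, (MonoidHom.pi fun j => zpowGroupHom (z i j)).comp (e.comp (Pi.evalMonoidHom _ i))
  have hf : ∀ c, f c = ∏ i, fun j => e (c i) ^ z i j := fun c => MonoidHom.finsetProd_apply _ _ _
  refine ⟨f, (injective_iff_map_eq_one f).2 fun c hc => funext fun j => he ?_, fun c => ?_⟩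
  · have h4 : torChar (f c) (L j) = ∏ i, e (c i) ^ (z i ⬝ᵥ L j) := by
      simp only [hf, ← torChar_pow]
      simp only [torChar, Finset.prod_apply, ← prod_zpow]; exact prod_comm
    rw [hc, torChar_one, prod_eq_single j (fun i _ h => by
      rw [sum_dotProduct, sum_eq_zero fun k hk => by rw [smul_dotProduct, hL i j k (mem_range.1 hk), if_neg h, smul_zero], zpow_zero]) (by simp),
      sum_dotProduct, sum_congr rfl fun k hk => show _ = g k * q ^ k by
        rw [smul_dotProduct, hL j j k (mem_range.1 hk), if_pos rfl, smul_eq_mul, mul_comm]] at h4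
    obtain ⟨u, v, huv⟩ := h2
    rw [← zpow_one (e (c j)), ← huv, _root_.zpow_add, mul_comm u, mul_comm v, _root_.zpow_mul, _root_.zpow_mul, ← h4, h3]
    simp
  · rw [hf, map_prod, ← prod_pow]
    refine prod_congr rfl fun i _ => ?_
    obtain ⟨n, rfl⟩ := Nat.exists_eq_succ_of_ne_zero hd.ne'
    obtain ⟨u, hu⟩ := h1
    have h5 : z i ᵥ* M = (q : ℤ) • z i - (orderOf ζ * u : ℤ) • Y i n := by
      have h6 : z i ᵥ* M = ∑ k ∈ range n, (q : ℤ) • (q : ℤ) ^ k • Y i k + Y i n := by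
        simp only [z]
        rw [sum_range_succ', add_vecMul, sum_vecMul, hY i n (by omega), Nat.mod_self, pow_zero, one_smul]
        congr 1
        exact sum_congr rfl fun k hk => by
          rw [hY i k (by simp at hk; omega), Nat.mod_eq_of_lt (by simpa using hk), smul_vecMul, smul_smul, pow_succ']
      simp only [h6, z]
      rw [← hu, sum_range_succ, smul_add, smul_sum, pow_succ']; module
    rw [mact_pow, h5]
    funext j
    simp [_root_.zpow_sub, _root_.zpow_mul, h3, mul_comm (q : ℤ), mul_assoc]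

theorem val_pow_sub_one {r q e : ℕ} [hr : Fact r.Prime] (h2 : r ≠ 2) (hq : 2 ≤ q) (hrq : ¬ r ∣ q) (he : ¬ r ∣ e) :
    padicValNat r (q ^ e - 1) = if orderOf (q : ZMod r) ∣ e then
      padicValNat r ((cyclotomic (orderOf (q : ZMod r)) ℤ).eval (q : ℤ)).natAbs else 0 := by
  have h0 : ∀ n, r ∣ q ^ n - 1 ↔ orderOf (q : ZMod r) ∣ n := fun n => by
    rw [orderOf_dvd_iff_pow_eq_one, ← ZMod.natCast_eq_zero_iff, Nat.cast_sub (Nat.one_le_pow _ _ (by omega)), sub_eq_zero]
    simp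
  have hd : 0 < orderOf (q : ZMod r) := (isOfFinOrder_iff_pow_eq_one.2 ⟨_, Nat.sub_pos_of_lt hr.out.one_lt,
    ZMod.pow_card_sub_one_eq_one (by rwa [Ne, ZMod.natCast_eq_zero_iff])⟩).orderOf_pos
  split_ifs with h
  swap; · exact padicValNat.eq_zero_of_not_dvd (mt (h0 e).1 h)
  generalize orderOf (q : ZMod r) = d at *
  obtain ⟨n, rfl⟩ := h
  have h1 : 1 < q ^ d := Nat.one_lt_pow hd.ne' hq
  have h3 := padicValNat.pow_sub_pow (hr.out.odd_of_ne_two h2) h1 ((h0 d).2 dvd_rfl)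
    (fun h => hrq (hr.out.dvd_of_dvd_pow h)) (n := n) (fun h => he (by simp [h]))
  rw [one_pow, ← pow_mul, padicValNat.eq_zero_of_not_dvd (fun h => he (h.mul_left _)), add_zero] at h3
  have h4 := congrArg (fun P => (eval (q : ℤ) P).natAbs) (prod_cyclotomic_eq_X_pow_sub_one hd ℤ)
  have h5 : ∀ n, (eval (q : ℤ) (X ^ n - 1)).natAbs = q ^ n - 1 := fun n => by
    rw [← Int.natAbs_natCast (q ^ n - 1), Nat.cast_sub (Nat.one_le_pow _ _ (by omega))]; simp
  simp only [h5, ← Nat.insert_self_properDivisors hd.ne', prod_insert Nat.self_notMem_properDivisors, eval_mul,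
    Int.natAbs_mul] at h4
  have h6 : ¬ r ∣ (eval (q : ℤ) (∏ i ∈ d.properDivisors, cyclotomic i ℤ)).natAbs := fun h => by
    rw [← Int.natCast_dvd, eval_prod, (Nat.prime_iff_prime_int.1 hr.out).dvd_finsetProd_iff] at h
    obtain ⟨i, hi, h⟩ := h
    have := Int.natCast_dvd.1 (h.trans (eval_dvd (cyclotomic.dvd_X_pow_sub_one i ℤ)))
    rw [h5, h0] at this
    exact (Nat.le_of_dvd (Nat.pos_of_mem_properDivisors hi) this).not_gt (Nat.mem_properDivisors.1 hi).2
  rw [h3, ← h4, padicValNat.mul (left_ne_zero_of_mul (h4 ▸ Nat.sub_ne_zero_of_lt h1)) (fun h => h6 (by simp [h])),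
    padicValNat.eq_zero_of_not_dvd h6, add_zero]

variable {D : ChevalleyDatum}

variable (D) in
/-- A certificate for a homocyclic subgroup of a torus. -/
def SylOK (T : Fast) (ds : List ℕ) (z : ℕ × ℕ × ℕ × List ℕ × List (List ℤ) × List (List ℤ) × List (List (List ℤ))) : Prop :=
  (∀ e ∈ z.2.2.2.1, 0 < e ∧ e < z.1) ∧
  (∀ i j : Fin D.rank, cor D (wdT T z.2.1 z.2.2.1 (D.simple i)) j = lm z.2.2.2.2.1 i j) ∧
  ∀ i : Fin (ds.filter fun e => z.1 ∣ e).length, ∀ k < z.1, (∀ j : Fin D.rank, lm (z.2.2.2.2.2.2.getD i []) k j =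
    ∑ s : Fin D.rank, lm (z.2.2.2.2.2.2.getD i []) ((k + 1) % z.1) s * lm z.2.2.2.2.1 s j) ∧
    ∀ j : Fin (ds.filter fun e => z.1 ∣ e).length, ∑ s : Fin D.rank, lm (z.2.2.2.2.2.2.getD i []) k s *
      lm z.2.2.2.2.2.1 j s = if i = j then cyG z.1 z.2.2.2.1 k else 0

noncomputable instance decSylOK (T : Fast) (ds : List ℕ)
    (z : ℕ × ℕ × ℕ × List ℕ × List (List ℤ) × List (List ℤ) × List (List (List ℤ))) : Decidable (SylOK D T ds z) := by
  unfold SylOK; infer_instance

variable [hD : RootFacts D] [hN : NFacts D]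

theorem SCov.sylow {D' : ChevalleyDatum} [RootFacts D'] [NFacts D'] [MatFacts D'] [ChainFacts D'] [MatFacts D]
    [ChainFacts D] {e : ℕ → ℕ} {ε : ℕ → ℤ} (h : SCov D D' e ε) {F : Type*} [Field F] [Fintype F] {T : Fast}
    (hT : Agree D T) {ds : List ℕ} (Z : List (ℕ × ℕ × ℕ × List ℕ × List (List ℤ) × List (List ℤ) × List (List (List ℤ))))
    (hZ : (∀ z ∈ Z, SylOK D T ds z) ∧ ∀ e ∈ ds, ∀ d < e + 1, d ∣ e → ∃ z ∈ Z, z.1 = d) (h2 : 2 ∈ ds) (f : ℕ)
    (C : List (List ℤ)) (hf : f ∣ ds.prod ∧ ∀ i k : Fin D.rank,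
      ∑ j : Fin D.rank, lm C i j * D.cartan k (D.simple j) = if k = i then (f : ℤ) else 0)
    (hc : (Nat.card (D.group F) : ℤ) * Nat.card (zker D F) =
      Nat.card F ^ (D.nroots / 2) * (ds.map fun d : ℕ => (Nat.card F : ℤ) ^ d - 1).prod)
    {q : ℕ} (hq : Fintype.card F = q) (r : ℕ) [hr : Fact r.Prime] (hrq : ¬ r ∣ q) (hrW : ¬ r ∣ ds.prod)
    (hrG : r ∣ Nat.card (D.group F)) (P : Sylow r (D.group F)) :
    Nonempty (P ≃* (Fin (ds.filter fun e => orderOf (q : ZMod r) ∣ e).length → Multiplicative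
      (ZMod (r ^ padicValNat r ((cyclotomic (orderOf (q : ZMod r)) ℤ).eval (q : ℤ)).natAbs)))) := by
  have h1 : 2 ≤ q := hq ▸ Fintype.one_lt_card
  have h3 : ∀ e ∈ ds, ¬ r ∣ e := fun e he h => hrW (h.trans (List.dvd_prod he))
  have h4 : r ≠ 2 := fun h => h3 2 h2 (h ▸ dvd_rfl)
  have h5 : ¬ r ∣ Nat.card (zker D F) := fun h => by
    obtain ⟨a, ha⟩ := exists_prime_orderOf_dvd_card' r h
    refine hrW ((ha.symm.dvd.trans (orderOf_dvd_of_pow_eq_one (Subtype.ext (_root_.funext fun i => ?_)))).trans hf.1)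
    exact (zpow_natCast _ _).symm.trans ((torChar_eq_zpow (hf.2 i)).trans
      (prod_eq_one fun j _ => by rw [a.2 j, _root_.one_zpow]))
  have := (isChev_xg (D := D) (K := F)).finite_G GG_xg
  have h6 : padicValNat r (Nat.card (D.group F)) = (ds.filter fun e => orderOf (q : ZMod r) ∣ e).length *
      padicValNat r ((cyclotomic (orderOf (q : ZMod r)) ℤ).eval (q : ℤ)).natAbs := by
    have h7 : Nat.card (D.group F) * Nat.card (zker D F) = q ^ (D.nroots / 2) * (ds.map fun d => q ^ d - 1).prod := by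
      rw [Nat.card_eq_fintype_card (α := F), hq] at hc
      zify; simpa [Function.comp_def, Nat.one_le_pow _ q (by omega)] using hc
    have h8 : ∀ L : List ℕ, (∀ e ∈ L, ¬ r ∣ e) → (L.map fun d => q ^ d - 1).prod ≠ 0 ∧
        padicValNat r (L.map fun d => q ^ d - 1).prod = (L.filter fun e => orderOf (q : ZMod r) ∣ e).length *
        padicValNat r ((cyclotomic (orderOf (q : ZMod r)) ℤ).eval (q : ℤ)).natAbs := fun L hL => by
      induction L with
      | nil => simp
      | cons e L ih =>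
        have h9 := hL e (by simp)
        have h10 := Nat.sub_ne_zero_of_lt (Nat.one_lt_pow (fun h : e = 0 => h9 (h ▸ dvd_zero r)) h1)
        obtain ⟨h11, h12⟩ := ih fun e he => hL e (by simp [he])
        refine ⟨mul_ne_zero h10 h11, ?_⟩
        rw [List.map_cons, List.prod_cons, padicValNat.mul h10 h11, h12, val_pow_sub_one h4 h1 hrq h9, List.filter_cons]
        split_ifs <;> simp_all [add_mul, add_comm]
    have h9 := congrArg (padicValNat r) h7
    rwa [padicValNat.mul Nat.card_pos.ne' Nat.card_pos.ne', padicValNat.mul (by positivity) (h8 ds h3).1,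
      padicValNat.eq_zero_of_not_dvd h5, padicValNat.eq_zero_of_not_dvd (fun h => hrq (hr.out.dvd_of_dvd_pow h)),
      (h8 ds h3).2, add_zero, zero_add] at h9
  obtain ⟨e, he⟩ := List.exists_mem_of_length_pos (Nat.pos_of_mul_pos_right
    (h6 ▸ one_le_padicValNat_of_dvd Nat.card_pos.ne' hrG))
  simp only [List.mem_filter, decide_eq_true_eq] at he
  have h7 : 0 < e := Nat.pos_of_ne_zero fun h => h3 e he.1 (h ▸ dvd_zero r)
  obtain ⟨z, hz, h8⟩ := hZ.2 e he.1 _ (Nat.lt_succ_of_le (Nat.le_of_dvd h7 he.2)) he.2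
  obtain ⟨c1, c2, c3⟩ := hZ.1 z hz
  have h9 := h8 ▸ Nat.pos_of_dvd_of_pos he.2 h7
  have h10 := pow_orderOf_eq_one (q : ZMod r)
  rw [← h8] at h6 h10 ⊢
  subst hq
  obtain ⟨p, hp, _, h11, φ, hφ⟩ := exists_frob_of (K := AlgebraicClosure F) (F := F)
  obtain ⟨w, hw, h12⟩ := exists_wdT hT z.2.1 z.2.2.1
  obtain ⟨n, -, j, h13⟩ := (h.model hφ).twist hw
  obtain ⟨θ, -, -, -, h14⟩ := (h.isSC (K := F)).exists_cover
  generalize hv : padicValNat r (Int.natAbs _) = v at h6 ⊢
  obtain ⟨g, h15, h16⟩ := exists_homocyclic (K := AlgebraicClosure F) (q := Fintype.card F) (M := wM D w * 1) (m := r ^ v)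
    (Y := fun i k s => lm (z.2.2.2.2.2.2.getD i []) k s) (fun i k hk => _root_.funext fun j => by
      simpa only [mul_one, vecMul, dotProduct, wM, ← h12, c2] using (c3 i k hk).1 j) h9
    (L := fun i s => lm z.2.2.2.2.2.1 i s) (fun i j k hk => (c3 i k hk).2 j) (fun h => hrq (by
      rwa [← (Nat.prime_dvd_prime_iff_eq hp.out hr.out).1 (hp.out.dvd_of_dvd_pow ((CharP.cast_eq_zero_iff _ p _).1 h))]))
    ((Int.natCast_dvd.2 (hv ▸ pow_padicValNat_dvd)).trans (by simpa using eval_dvd (cyclotomic.dvd_X_pow_sub_one z.1 ℤ)))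
    (by
      rw [Nat.cast_pow]
      refine ((Nat.prime_iff_prime_int.1 hr.out).coprime_iff_not_dvd.2 fun h => ?_).symm.pow_right
      rw [← ZMod.intCast_zmod_eq_zero_iff_dvd] at h
      push_cast at h
      rw [sum_cyG h9 h10 fun e he => (c1 e he).2, List.prod_eq_zero_iff, List.mem_map] at h
      obtain ⟨e, he, h⟩ := h
      exact (Nat.le_of_dvd (c1 e he).1 (h8 ▸ orderOf_dvd_of_pow_eq_one (sub_eq_zero.1 h))).not_gt (c1 e he).2)
  have hx := h13.sc
  let u₀ := (MonoidHom.ofInjective h13.inj).symm.toMonoidHom.comp (((hx.toIsSt.hProdHom hx.r3).comp g).codRestrict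
    j.range fun c => by rw [MonoidHom.comp_apply, hx.toIsSt.hProdHom_eq]; exact h13.hP_mem.2 (h16 c))
  have hu : Function.Injective u₀ := fun a b e => h15 (hx.hP_inj (by
    simpa only [← hx.toIsSt.hProdHom_eq hx.r3] using! congrArg Subtype.val ((MonoidHom.ofInjective h13.inj).symm.injective e)))
  let u := θ.comp u₀
  have h17 : Nat.card (Fin (ds.filter fun e => z.1 ∣ e).length → Multiplicative (ZMod (r ^ v))) =
      r ^ (Nat.card (D.group F)).factorization r := by
    rw [Nat.factorization_def _ hr.out, h6, pow_mul']; simp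
  have h18 : Function.Injective u := (injective_iff_map_eq_one u).2 fun c hc => by
    have h18 := (orderOf_dvd_natCard (⟨u₀ c, hc⟩ : θ.ker)).trans h14.dvd
    rw [← Subgroup.orderOf_coe, orderOf_injective _ hu] at h18
    exact orderOf_eq_one_iff.1 (Nat.eq_one_of_dvd_coprimes ((hr.out.coprime_iff_not_dvd.2 h5).pow_left _)
      (h17 ▸ orderOf_dvd_natCard c) h18)
  exact ⟨(P.equiv (Sylow.ofCard u.range ((Nat.card_congr (MonoidHom.ofInjective h18).toEquiv).symm.trans h17))).trans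
    (MonoidHom.ofInjective h18).symm⟩

end Cfsg.Agent.H8
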