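import Cfsg.Agent.H8.TwPE6
import Cfsg.Agent.H8.TwR
import Cfsg.Agent.H8.SCovTab

/-! The Schur multiplier of the twisted group of type `E6`. -/

set_option autoImplicit false
set_option linter.unusedSectionVars false

namespace Cfsg.Agent.H8

open Cfsg.Lie Matrix Cfsg.Agent.H7

universe u

variable {K : Type u} [Field K] {G : Type u} [Group G] {x : ℕ → K → G} {q : ℕ} {φ : K →+* K} {σ : G →* G}

local notation "𝐧 " k:max => (⟨k, by decide⟩ : Fin chevE6.rank)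

set_option synthInstance.maxSize 2000 in
theorem upper_E6 [Fintype K] (hq : 2 < q) (hF : Fintype.card K = q ^ 2) (hφ : ∀ t, φ t = t ^ q)
    (h : TwD chevE6 x σ rhoE6 pfE6 (twF H7.twE6 φ) (twS x (e6Words K q)) (fun i => {j | j ∈ oLE6 i}) (fun _ => q) (zE6 x q)) :
    L0.UpperMult (twS x (e6Words K q)) (Multiplicative (ZMod (Nat.gcd 3 (q + 1)))) := by
  intro Γ _ _ τ hτ
  obtain ⟨p, _, -, hp, -⟩ := FiniteField.card' K
  have := Fact.mk hp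
  have hx := h.st
  obtain ⟨h1, h2, h3⟩ := pk_of_pmult (pmult_E6 p hq hF hφ h) hτ
  obtain ⟨H1, m1, e1, s1⟩ := exists_tor_one h h1 h2 (i := 𝐧 1) hφ rfl
  obtain ⟨H3, m3, e3, s3⟩ := exists_tor_one h h1 h2 (i := 𝐧 3) hφ rfl
  obtain ⟨H0, m0, e0, s0⟩ := exists_tor h h1 h2 (i := (𝐧 0)) (RingHom.id K) [(56, RingHom.id K), (36, φ)]
    (by simp only [List.map]; decide +kernel) (by simp only [Set.mem_ofPred_eq]; decide +kernel) (by simp only [List.map]; decide +kernel)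
    (fun t => by simpa [hφ] using mem_e6b (r := 56) (s := 36) (by simp) t)
    (fun t => by simpa [hφ, show chevE6.neg 56 = 15 from rfl, show chevE6.neg 36 = 35 from rfl]
      using mem_e6b (r := 15) (s := 35) (by simp) t)
    (fun t => by simpa [show chevE6.simple 0 = 56 from rfl] using co_e6 hx (r := 56) (s := 36) (by decide +kernel) t _ (𝐧 0))
    (fun _ _ t _ => ⟨t, rfl⟩) (nrep_wJ _ (R := [56, 36]) [0, 5] (by decide +kernel))
  obtain ⟨H2, m2, e2, s2⟩ := exists_tor h h1 h2 (i := (𝐧 2)) (RingHom.id K) [(42, RingHom.id K), (37, φ)]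
    (by simp only [List.map]; decide +kernel) (by simp only [Set.mem_ofPred_eq]; decide +kernel) (by simp only [List.map]; decide +kernel)
    (fun t => by simpa [hφ] using mem_e6b (r := 42) (s := 37) (by simp) t)
    (fun t => by simpa [hφ, show chevE6.neg 42 = 29 from rfl, show chevE6.neg 37 = 34 from rfl]
      using mem_e6b (r := 29) (s := 34) (by simp) t)
    (fun t => by simpa [show chevE6.simple 2 = 42 from rfl] using co_e6 hx (r := 42) (s := 37) (by decide +kernel) t _ (𝐧 2))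
    (fun _ _ t _ => ⟨t, rfl⟩) (nrep_wJ _ (R := [42, 37]) [2, 4] (by decide +kernel))
  have key : ∀ z ∈ τ.ker, ∃ ζ : Kˣ, ζ ^ 3 = 1 ∧ ζ ^ (q + 1) = 1 ∧ z = H0 ζ * H2 (ζ ^ 2 : Kˣ) := fun z hz => by
    obtain ⟨_, _ | ⟨a0, _ | ⟨a2, _ | ⟨a1, _ | ⟨a3, _ | _⟩⟩⟩⟩, rfl⟩ := exists_prod h h1 h2 (h3 ▸ hτ.2.2)
      [𝐧 0, 𝐧 2, 𝐧 1, 𝐧 3] (fun i => let ⟨j, hj, e⟩ := (by decide +kernel : ∀ i : Fin chevE6.rank,
        ∃ j ∈ [𝐧 0, 𝐧 2, 𝐧 1, 𝐧 3], oLE6 i = oLE6 j) i; ⟨j, hj, by rw [e]⟩) (h3.ge hz)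
    obtain ⟨t0, n0, rfl⟩ := s0 _ a0
    obtain ⟨t1, n1, rfl⟩ := s1 _ a1
    obtain ⟨t2, n2, rfl⟩ := s2 _ a2
    obtain ⟨t3, n3, rfl⟩ := s3 _ a3
    let a : Fin 6 → Kˣ := ![.mk0 t0 n0, .mk0 t1 (by simpa using n1), .mk0 t2 n2, .mk0 t3 (by simpa using n3),
      .mk0 (φ t2) (by simpa using n2), .mk0 (φ t0) (by simpa using n0)]
    obtain ⟨b0, b1, b2, b3, -, b5⟩ := zker_E6 (mem_zker_of h (a := a) (by
      have : (twS x (e6Words K q)).subtype.comp τ _ = 1 := h3.ge hz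
      refine (hProd_E6 hx hx.R3_of_finite a).trans (Eq.trans ?_ this)
      simp only [List.prod_cons, List.prod_nil, map_mul, e0, e1, e2, e3, List.map, mul_one]; rfl))
    obtain rfl : t1 = 1 := Subtype.ext (congrArg Units.val b1)
    obtain rfl : t3 = 1 := Subtype.ext (congrArg Units.val b3)
    refine ⟨a 0, b0, by rw [pow_succ, show a 0 ^ q = a 5 from Units.ext (hφ _).symm, b5, ← pow_succ, b0], ?_⟩
    have c1 : H1 1 = 1 := by simpa using m1 1 one_ne_zero 1 one_ne_zero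
    have c3 : H3 1 = 1 := by simpa using m3 1 one_ne_zero 1 one_ne_zero
    rw [← b2]; simp [c1, c3, a]
  have c0 : H0 1 = 1 := by simpa using m0 1 one_ne_zero 1 one_ne_zero
  have c2 : H2 1 = 1 := by simpa using m2 1 one_ne_zero 1 one_ne_zero
  by_cases hk : ∀ z ∈ τ.ker, z = 1
  · exact ⟨1, fun z => ⟨1, Subtype.ext (hk z z.2).symm⟩⟩
  push Not at hk
  obtain ⟨z, hz, hne⟩ := hk
  obtain ⟨ζ, a1, a2, rfl⟩ := key z hz
  have h4 : ∀ k, H0 (ζ ^ k : Kˣ) * H2 ((ζ ^ k) ^ 2 : Kˣ) = (H0 ζ * H2 (ζ ^ 2 : Kˣ)) ^ k := fun k => by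
    induction k with
    | zero => simp [c0, c2]
    | succ k ih =>
      rw [pow_succ' (_ * _), ← ih, ← mul_assoc, ← Subgroup.mem_center_iff.1 (hτ.2.1 hz), pow_succ ζ, mul_comm (ζ ^ k), mul_pow,
        mul_comm ζ, Units.val_mul, Units.val_mul, m0 _ (Units.ne_zero _) _ (Units.ne_zero _),
        m2 _ (Units.ne_zero _) _ (Units.ne_zero _)]
      group
  have h5 : IsPrimitiveRoot ζ 3 := orderOf_eq_prime a1 (fun e => hne (by simp [e, c0, c2])) ▸ IsPrimitiveRoot.orderOf ζ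
  refine ⟨L0.zmodHom _ ⟨_, hz⟩ (Subtype.ext (by
    rw [SubgroupClass.coe_pow, ← h4, pow_gcd_eq_one.2 ⟨a1, a2⟩]; simp [c0, c2])), fun ⟨z, hz'⟩ => ?_⟩
  obtain ⟨ζ', b1, -, rfl⟩ := key z hz'
  obtain ⟨k, -, rfl⟩ := h5.eq_pow_of_mem_rootsOfUnity (ξ := ζ') b1
  exact ⟨_, (L0.zmodHom_intCast _ _ _ k).trans (Subtype.ext (by simpa using (h4 k).symm))⟩

theorem perfect_E6 [Fintype K] (hx : IsSt chevE6 x) (hq : 2 < q) (hF : Fintype.card K = q ^ 2) (hφ : ∀ t, φ t = t ^ q) :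
    twS x (e6Words K q) ≤ ⁅twS x (e6Words K q), twS x (e6Words K q)⁆ := by
  obtain ⟨y, hy⟩ := exists_mono_ne hφ (e := (1, 1, 0)) (m := q + 1) (by simp [add_comm]) (by simp) (by nlinarith)
  generalize hv : mono φ y (1, 1, 0) = v at hy
  have h1 : φ v = v := by
    simp [← hv, mono, hφ, mul_pow, ← pow_mul, ← pow_two, ← hF, FiniteField.pow_card, mul_comm]
  have h2 : ∀ c : Fin chevE6.rank → ℤ, (∀ i, c (pfE6 i) = c i) → ∃ g ∈ twS x (e6Words K q), ∀ r t,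
      g * x r t * g⁻¹ = x r (v ^ (c ⬝ᵥ wt chevE6 r) * t) := fun c hc => ⟨_, hProd_mem_E6 hx hx.R3_of_finite hφ
    (a := fun i => v ^ c i) (fun i => Units.ext (by simp [hc, ← hφ, h1])), fun r t => by
      rw [hx.acts_hProd]; simp [torChar_pow]⟩
  have h3 : ∀ n : ℤ, n = 1 ∨ n = -1 → (v : K) ^ n ≠ 1 := by rintro _ (rfl | rfl) <;> simpa using hy
  refine twS_le.2 ?_
  rintro l (⟨t, ht, r, hr, rfl⟩ | ⟨t, r, hr, rfl⟩)
  · obtain ⟨c, -, hc, h4⟩ := (by decide +kernel : ∀ r ∈ [46, 25, 39, 32], ∃ c ∈ [fun i : Fin chevE6.rank => if i.1 = 1 then (1 : ℤ) else 0,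
      fun i => if i.1 = 3 then 1 else 0], (∀ i, c (pfE6 i) = c i) ∧ (c ⬝ᵥ wt chevE6 r = 1 ∨ c ⬝ᵥ wt chevE6 r = -1)) r hr
    obtain ⟨g, hg, h5⟩ := h2 c hc
    simpa using mem_comm_of (L := φ.eqLocusField (RingHom.id K)) (ξ := fun t => x r t) (fun t u => hx.add _ _ _)
      (fun t => mem_e6a hr ((hφ _).symm.trans t.2)) hg (c := ⟨v ^ (c ⬝ᵥ wt chevE6 r), by simp [h1]⟩)
      (fun e => h3 _ h4 (congrArg Subtype.val e)) (fun t => h5 _ _) ⟨t, (hφ _).trans ht⟩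
  · obtain ⟨c, -, hc, h4, h5, h6, h7⟩ := (by decide +kernel : ∀ r ∈ [(56, 36), (15, 35), (42, 37), (29, 34)],
      ∃ c ∈ [fun i : Fin chevE6.rank => if i.1 = 2 ∨ i.1 = 4 then (1 : ℤ) else 0, fun i => if i.1 = 3 then 1 else 0],
      (∀ i, c (pfE6 i) = c i) ∧ (c ⬝ᵥ wt chevE6 r.1 = 1 ∨ c ⬝ᵥ wt chevE6 r.1 = -1) ∧
      c ⬝ᵥ wt chevE6 r.2 = c ⬝ᵥ wt chevE6 r.1 ∧ r.1 ≠ chevE6.neg r.2 ∧ chevE6.commTerms r.2 r.1 = []) r hr
    obtain ⟨g, hg, h8⟩ := h2 c hc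
    simpa [hφ] using mem_comm_of (ξ := fun t => x r.1 t * x r.2 (φ t)) (fun t u => by
        rw [map_add, hx.add, hx.add, mul_assoc, mul_assoc, ← mul_assoc (x r.2 _), (hx.commute h6 h7 _ _).eq, mul_assoc])
      (fun t => hφ t ▸ mem_e6b hr t) hg (h3 _ h4) (fun t => by rw [map_mul, map_zpow₀, h1, ← h8, ← h5, ← h8]; group) t

theorem hasSchur_twE6 [Fintype K] (hq : 2 < q) (hF : Fintype.card K = q ^ 2) :
    HasCyclicSchurMultiplier (twistedE6 K q) (Nat.gcd 3 (q + 1)) := by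
  obtain ⟨φ, hφ⟩ := exists_frob hF two_ne_zero
  have h2 : ∀ t, φ (φ t) = t := fun t => by rw [hφ, hφ, ← pow_mul, ← pow_two, ← hF, FiniteField.pow_card]
  obtain ⟨σ, hσ⟩ := exists_twistE6 (isChev_xg (K := K)) GG_xg φ
  have h := twD_E6 isChev_xg GG_xg hφ h2 hσ
  have hU := upper_E6 hq hF hφ h
  have := h.chev.finite_G h.top
  refine L0.hasSchur_congr (L0.hasSchur_of ?_ hU) (twEquiv (e6Words K q))
  obtain h3 | h3 := (Nat.dvd_prime Nat.prime_three).1 (Nat.gcd_dvd_left 3 (q + 1))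
  · rw [h3]; exact L0.lowerMult_one _
  have hy := scovE6.isSC (K := K)
  obtain ⟨θ, h4, -, h5, -⟩ := hy.exists_cover
  have h6 := map_twS (x := ys chevE6 chevE7 K _ _) θ (e6Words K q)
  rw [funext₂ h4] at h6
  let τ := (MulEquiv.subgroupCongr h6).toMonoidHom.comp (θ.subgroupMap _)
  have h7 : ∀ g, τ g = 1 ↔ θ g = 1 := fun g => Subtype.ext_iff
  have hτ : IsStemExtension τ := ⟨(MulEquiv.subgroupCongr h6).surjective.comp (θ.subgroupMap_surjective _), fun g hg =>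
    Subgroup.mem_center_iff.2 fun a => Subtype.ext (Subgroup.mem_center_iff.1 (h5 ((h7 g).1 hg)) a), fun g _ => by
      have := perfect_E6 hy.toIsSt hq hF hφ g.2
      rw [← Subgroup.map_subtype_commutator] at this
      exact (Subgroup.mem_map_iff_mem Subtype.val_injective).1 this⟩
  obtain ⟨π, hπ⟩ := hU _ τ hτ
  have h8 := (card_TS_E6 hF).1
  rw [h3] at h8
  obtain ⟨a, ha⟩ := Subgroup.ne_bot_iff_exists_ne_one.1 ((Subgroup.one_lt_card_iff_ne_bot _).1 (h8.ge.trans_lt' (by norm_num)))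
  have h9 : Nontrivial τ.ker := ⟨⟨⟨_, hProd_mem_E6 hy.toIsSt hy.r3 hφ a.2.2⟩, (h7 _).2
    ((mem_ker_iff hy.toIsSt hy.gen isChev_xg h4).2 ⟨_, rfl, a.2.1⟩)⟩, 1,
    fun e => ha (Subtype.ext (hy.inj _ (congrArg (fun g : τ.ker => g.1.1) e)))⟩
  have : NeZero (Nat.gcd 3 (q + 1)) := ⟨by omega⟩
  refine L0.lowerMult_of τ hτ (MulEquiv.ofBijective π ((Nat.bijective_iff_surjective_and_card _).2 ⟨hπ, ?_⟩)).symm
  have h10 := Subgroup.card_dvd_of_surjective π hπ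
  rw [Nat.card_congr Multiplicative.toAdd, Nat.card_zmod, h3] at h10 ⊢
  exact (((Nat.dvd_prime Nat.prime_three).1 h10).resolve_left Finite.one_lt_card.ne').symm

end Cfsg.Agent.H8
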