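import Cfsg.Agent.H8.TwPF4
import Cfsg.Agent.H8.SpB2
import Cfsg.Agent.H8.ModelTw
import Cfsg.Agent.H8.SCovTab

/-! The Schur multiplier of the twisted group of type `F4`. -/

set_option autoImplicit false
set_option linter.unusedSectionVars false

namespace Cfsg.Agent.H8

open Cfsg.Lie Matrix Cfsg.Agent.H7
open scoped commutatorElement MatrixGroups

universe u

theorem pe_of_cyclic {R C : Type*} [Group R] [Finite R] [Group C] {Φ : R →* C} (hc : Φ.ker ≤ Subgroup.center R) {p : ℕ}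
    (hp : p.Prime) {s : Set R} (hs : Subgroup.closure s = ⊤) (hs' : ∀ a ∈ s, PE p a)
    (h : ∀ r, r.Prime → r ≠ p → ∀ P ≤ Φ.range, IsPGroup r P → IsCyclic P) {z : R} (hz : z ∈ Φ.ker) : PE p z := by
  refine ⟨_, (Nat.eq_prime_pow_of_unique_prime_dvd (orderOf_pos z).ne' fun {r} hr ⟨m, hm⟩ => ?_) ▸ pow_orderOf_eq_one z⟩
  by_contra h0
  have := Fact.mk hr
  obtain ⟨P⟩ : Nonempty (Sylow r R) := inferInstance
  have := h r hr h0 _ (Subgroup.map_le_range Φ P) (P.isPGroup'.map Φ)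
  let _ : CommGroup P := commGroupOfCyclicCenterQuotient (Φ.subgroupMap P) fun a ha => Subgroup.mem_center_iff.2 fun b =>
    Subtype.ext (Subgroup.mem_center_iff.1 (hc (congrArg Subtype.val ha :)) b.1)
  have h1 := MonoidHom.transfer_eq_pow (MonoidHom.id P) (z ^ m) fun k g _ => by
    rw [Subgroup.mem_center_iff.1 (pow_mem (hc (pow_mem hz m)) k) g⁻¹, inv_mul_cancel_right]
  have h2 : MonoidHom.transfer (MonoidHom.id P) = 1 := MonoidHom.eq_of_eqOn_dense hs fun a ha => by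
    obtain ⟨k, hk⟩ := hs' a ha
    obtain ⟨l, hl⟩ := P.isPGroup' (MonoidHom.transfer (MonoidHom.id P) a)
    have := (pow_gcd_eq_one (n := p ^ k)).2 ⟨hl, by rw [← map_pow, hk, map_one]⟩
    rwa [Nat.Coprime.pow _ _ ((Nat.coprime_primes hr hp).2 h0), pow_one] at this
  have h3 : z ^ (m * P.1.index) = 1 := by rw [pow_mul]; exact (congrArg Subtype.val (h2 ▸ h1 :)).symm
  rw [← orderOf_dvd_iff_pow_eq_one, hm, mul_comm r, Nat.mul_dvd_mul_iff_left (Nat.pos_of_mul_pos_left (hm ▸ orderOf_pos z))] at h3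
  exact P.not_dvd_index h3

theorem SCov.isSC' {D D' : ChevalleyDatum} [RootFacts D] [NFacts D] [RootFacts D'] [NFacts D'] {e : ℕ → ℕ} {ε : ℕ → ℤ}
    {K G : Type*} [Field K] [Finite K] [Group G] {x : ℕ → K → G} (h : SCov D D' e ε) (hx : IsFaith D' x) :
    IsSC D (xsub (embFam D e ε x)) :=
  have h0 := IsFaith.of_injective (φ := (GG (embFam D e ε x)).subtype) (x := xsub _) Subtype.val_injective
    (h.isFaith hx hx.toIsSt.R3_of_finite)
  { toIsFaith := h0, r3 := h0.toIsSt.R3_of_finite, gen := GG_xsub _, inj a ha := funext fun j => by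
      obtain ⟨c, hc⟩ := h.span j
      have h1 := map_hProd (GG (embFam D e ε x)).subtype (xsub _) a
      rw [ha, map_one] at h1
      rw [← torChar_single' a j, ← hc]
      refine torChar_sum _ (fun k => ?_) c
      have h2 := h.emb.acts_hProd hx.toIsSt a (D'.simple k) 1
      rw [← show 1 = hProd D (embFam D e ε x) a from h1, one_mul, inv_one, mul_one, mul_one] at h2
      exact Units.val_eq_one.1 (hx.x_inj (simple_lt k) h2).symm }

variable {K : Type*} [Field K] [CharP K 2] {G : Type u} [Group G] {x : ℕ → K → G} {m : ℕ} {φ : K →+* K} {σ : G →* G}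

local notation "𝐧 " k:max => (⟨k, by decide⟩ : Fin chevF4.rank)

variable [Fintype K] [H2.SzF K m] (hφ : ∀ t, φ t = t ^ 2 ^ m) (h2 : ∀ t, φ (φ t) ^ 2 = t)
  (h : TwD chevF4 x σ rhoF4 pfF4 (twF H7.twF4 φ) (twS x (f4Words K (2 ^ m))) (fun i => {j | j ∈ oLF4 i}) (eF4 (2 ^ m)) (zF4 x hφ))
include h2 h

theorem suz_lift {Γ : Type*} [Group Γ] [Finite Γ] {θ : Γ →* G} (hθ : PK 2 θ) (hr : θ.range = twS x (f4Words K (2 ^ m))) {a : Γ}
    (ha : a ∈ RJ chevF4 x 2 θ {j | j ∈ oLF4 2}) : (∀ t, Commute (θ a) (x 47 t)) ∧ (θ a = 1 → a = 1) := by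
  have hx := h.st
  have hS := scovB2.isSC' h.faith
  obtain ⟨ψ, hψ⟩ := hS.exists_hom' isSt_spY isSt_spY.R3_of_finite
  generalize hy : embFam chevB2 (fld 8 0x1e1c1b1916141311) (fun _ => 1) x = y at hS ψ hψ
  have h3 : ∀ r ∈ [(0, 17), (1, 19), (4, 25), (5, 27), (6, 28), (7, 30)], ∀ t, x r.2 t = xsub y r.1 t := fun r hr t => by
    obtain ⟨h3, h4⟩ := (by decide +kernel : ∀ r ∈ [(0, 17), (1, 19), (4, 25), (5, 27), (6, 28), (7, 30)],
      r.1 < chevB2.nroots ∧ fld 8 0x1e1c1b1916141311 r.1 = r.2) r hr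
    simp [xsub, ← hy, embFam_lt h3, h4]
  simp only [List.forall_mem_cons] at h3
  obtain ⟨b0, b1, b4, b5, b6, b7, -⟩ := h3
  let M := ((Sz K m).comap ψ).map (GG y).subtype
  have m1 : ∀ s u, suz x φ s u ∈ M := fun s u => ⟨xsub y 5 (φ s) * (xsub y 4 s * (xsub y 6 (φ s * s + u) * xsub y 7 (φ u ^ 2))), by
    simp [hψ, spY_u hφ h2], by simp [suz, b4, b5, b6, b7]⟩
  have m2 : px x [28, 30] ∈ M := by simpa [suz, px, hx.zero] using m1 0 1
  have m3 : px x [19, 17] ∈ M := ⟨xsub y 1 1 * xsub y 0 1, by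
    simpa only [Subgroup.mem_comap, map_mul, hψ, spY_w (m := m), SetLike.mem_coe] using Subtype.prop _, by simp [px, b0, b1]⟩
  have m4 : ∀ a, θ a ∈ XJ chevF4 x {j | j ∈ oLF4 2} → θ a ∈ M := fun a ha =>
    let ⟨s, u, e⟩ := exists_suz h.chev h2 h.tw ha (h.sub.fix _ (hr ▸ ⟨a, rfl⟩)); e ▸ m1 s u
  have m5 : RJ chevF4 x 2 θ {j | j ∈ oLF4 2} ≤ M.comap θ := (Subgroup.closure_le _).2 fun a ha => ha.1.elim (m4 a) fun ha => by
    have h3 := nrep_wJ x (D := chevF4) (R := [27, 25, 27, 25]) (J := oLF4 2) [1, 2, 1, 2] (by decide +kernel)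
    rw [suzN h.chev] at h3
    obtain ⟨b, hb⟩ : px x [28, 30] ∈ θ.range := hr ▸ by simpa [suz, px, hx.zero] using suz_mem (x := x) hφ 0 1
    obtain ⟨c, hc⟩ : px x [19, 17] ∈ θ.range := hr ▸ by
      simpa [px, hx.zero, ← hφ] using mem_f4b (x := x) (e := 2 ^ m) (a := 20) (b := 22) (c := 19) (d := 17) (by simp) 0 1
    have h4 := mul_mem (mul_mem (mul_mem m2 m3) m2) (inv_mem (mul_mem m2 m3))
    have h5 := m4 (b * c * b * (b * c)⁻¹ * a * (b * c * b * (b * c)⁻¹)⁻¹) (by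
      simpa only [map_mul, map_inv, hb, hc] using conj_YJ hx h3 ha)
    simp only [map_mul, map_inv, hb, hc] at h5
    exact (mul_mem_cancel_left h4).1 ((mul_mem_cancel_right (inv_mem h4)).1 h5)
  have m6 : ∀ a ∈ RJ chevF4 x 2 θ {j | j ∈ oLF4 2}, θ a ∈ GG y := fun a ha => let ⟨b, _, e⟩ := m5 ha; e ▸ b.2
  refine ⟨fun t => (XS_le (H := Subgroup.centralizer {x 47 t})).2 (fun r _ u => ?_) (m6 a ha) _ rfl |>.symm, fun h1 => ?_⟩
  · rw [← hy, Subgroup.mem_centralizer_singleton_iff, embFam]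
    split_ifs with h3
    · obtain ⟨h4, h5⟩ := (by decide +kernel : ∀ r < chevB2.nroots, 47 ≠ chevF4.neg (fld 8 0x1e1c1b1916141311 r) ∧
        chevF4.commTerms (fld 8 0x1e1c1b1916141311 r) 47 = []) r h3
      exact hx.commute h4 h5 _ _
    · simp
  let Θ := (θ.comp (RJ chevF4 x 2 θ {j | j ∈ oLF4 2}).subtype).codRestrict (GG y) fun a => m6 a a.2
  have := H2.Suz.finite_Sz K m
  refine hθ.eq_one h1 ((pe_of_cyclic (Φ := ψ.comp Θ) (z := ⟨a, ha⟩) (fun b hb => ?_) Nat.prime_two (Subgroup.closure_preimage_eq_top _)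
    (fun b hb => hb.2.imp fun _ e => Subtype.ext e) (fun r hr h0 P h3 hP => ?_)
    (by rw [MonoidHom.mem_ker, MonoidHom.comp_apply, show Θ ⟨a, ha⟩ = 1 from Subtype.ext h1, map_one])).imp fun _ e => congrArg Subtype.val e)
  · have h3 := Subgroup.mem_center_iff.1 (ker_le_center hS.toIsSt hS.gen isFaith_spY hψ hb)
    refine Subgroup.mem_center_iff.2 fun c => Subtype.ext ((Subgroup.closure_le (Subgroup.centralizer {b.1})).2
      (fun c hc => ?_) c.2 _ rfl).symm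
    have h4 : θ c * θ b = θ b * θ c := congrArg Subtype.val (h3 (Θ ⟨c, Subgroup.subset_closure hc⟩))
    exact Subgroup.mem_centralizer_singleton_iff.2 (eq_mul_inv_iff_mul_eq.1 (hθ.unique (by simp [← h4]) hc.2 (hc.2.conj b)))
  · have h4 : P ≤ Sz K m := h3.trans (by
      rintro _ ⟨b, rfl⟩
      obtain ⟨c, h4, h5⟩ := m5 b.2
      rwa [show c = Θ b from Subtype.ext h5] at h4)
    have := Fact.mk hr
    have : IsCyclic (P.subgroupOf (Sz K m)) := H2.Suz.isCyclic_of_isPGroup_odd h0 hP.comap_subtype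
    exact isCyclic_of_surjective _ (Subgroup.subgroupOfEquivOfLe h4).surjective

set_option synthInstance.maxSize 2000 in
theorem upper_F4 (hK : 4 < Fintype.card K) (hDF : ∀ a τ, ∃ α, DF chevF4 x α a τ) :
    L0.UpperMult (twS x (f4Words K (2 ^ m))) (Multiplicative (ZMod 1)) := by
  intro Γ _ _ τ hτ
  have hx := h.st
  obtain ⟨h1, h3, h4⟩ := pk_of_pmult (pmult_of layOK_F4 h 2 fun Γ _ θ co χ F => split_F4 hφ h2 hK h hDF F) hτ
  obtain ⟨H, m0, e0, s0⟩ := exists_tor h h1 h3 (i := 𝐧 3) (RingHom.id K) [(33, φ), (24, RingHom.id K)]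
    (by simp only [List.map]; decide +kernel) (by simp only [Set.mem_ofPred_eq]; decide +kernel) (by simp only [List.map]; decide +kernel)
    (fun t => by simpa [hφ] using mem_f4a (r := 33) (s := 24) (by simp) t)
    (fun t => by simpa [hφ, show chevF4.neg 33 = 14 from rfl, show chevF4.neg 24 = 23 from rfl]
      using mem_f4a (r := 14) (s := 23) (by simp) t)
    (fun t => by simpa using co_f4 hx _ t (𝐧 3)) (fun _ _ t _ => ⟨t, rfl⟩) (nrep_wJ _ (R := [33, 24]) [0, 3] (by decide +kernel))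
  refine ⟨1, fun ⟨z, hz⟩ => ⟨1, Subtype.ext (Eq.symm ?_)⟩⟩
  obtain ⟨_, _ | ⟨a0, _ | ⟨a1, _ | _⟩⟩, rfl⟩ := exists_prod h h1 h3 (h4 ▸ hτ.2.2)
    [𝐧 3, 𝐧 2] (fun i => let ⟨j, hj, e⟩ := (by decide +kernel : ∀ i : Fin chevF4.rank,
      ∃ j ∈ [𝐧 3, 𝐧 2], oLF4 i = oLF4 j) i; ⟨j, hj, by rw [e]⟩) (h4.ge hz)
  obtain ⟨t, ht, rfl⟩ := s0 _ a0
  obtain ⟨h5, h6⟩ := suz_lift hφ h2 h h1 h3 a1.1
  have h7 : (twS x (f4Words K (2 ^ m))).subtype.comp τ _ = 1 := h4.ge hz
  simp only [List.prod_cons, List.prod_nil, mul_one, map_mul] at h7 ⊢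
  have h8 := (h5 1).inv_left.eq
  rw [← eq_inv_of_mul_eq_one_left h7, e0, ← mul_inv_eq_iff_eq_mul] at h8
  have h9 := ((hx.acts_hE (r := 33) (by decide) (t := φ t) (by simpa)).mul (hx.acts_hE (r := 24) (by decide) ht)) 47 1
  obtain rfl : t = 1 := by
    simpa [(by decide +kernel : A chevF4 33 47 = 0 ∧ A chevF4 24 47 = 1)] using
      h.faith.x_inj (r := 47) (by decide) (h9.symm.trans (by simpa using h8))
  have c0 : H 1 = 1 := by simpa using m0 1 one_ne_zero 1 one_ne_zero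
  simpa [c0] using h6 (by simpa [c0] using h7)

omit h h2 hφ in
theorem hasSchur_twF4 {F : Type*} [Field F] [Fintype F] {m : ℕ} (hm : 1 ≤ m) (hF : Fintype.card F = 2 ^ (2 * m + 1)) :
    HasCyclicSchurMultiplier (twistedF4 F (2 ^ m)) 1 := by
  have : CharP F 2 := charP_of_card_eq_prime_pow hF
  have := H2.SzF.of_fintype hm hF
  have hφ : ∀ t : F, iterateFrobenius F 2 m t = t ^ 2 ^ m := fun _ => rfl
  have h2 : ∀ t, iterateFrobenius F 2 m (iterateFrobenius F 2 m t) ^ 2 = t := fun t => by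
    rw [hφ, hφ, ← pow_mul, ← pow_mul, ← pow_succ, ← pow_add, ← add_assoc, ← two_mul, ← hF, FiniteField.pow_card]
  obtain ⟨σ, hσ⟩ := exists_twistF4 (isChev_xg (K := F)) GG_xg (iterateFrobenius F 2 m)
  have h := twD_F4 isChev_xg GG_xg hφ h2 hσ
  have := h.chev.finite_G h.top
  exact L0.hasSchur_congr (L0.hasSchur_of (L0.lowerMult_one _) (upper_F4 hφ h2 h
    (hF ▸ Nat.pow_lt_pow_right (a := 2) (m := 2) one_lt_two (by omega)) exists_DF)) (twEquiv (f4Words F _))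

end Cfsg.Agent.H8
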