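import Cfsg.Agent.H8.Sym
import Cfsg.Agent.H8.Pc2

/-! A collector for words in root elements with coefficients in the field with four elements. -/

set_option autoImplicit false
set_option linter.unusedSectionVars false

namespace Cfsg.Agent.H8

open Cfsg.Lie Matrix Cfsg.Agent.H7

/-- The code of `p + q ω`. -/
def mk4 (p q : ℕ) : ℕ := Nat.add (Nat.mod p 2) (Nat.mul 2 (Nat.mod q 2))

def add4 (a b : ℕ) : ℕ := mk4 (Nat.add a b) (Nat.add (Nat.div a 2) (Nat.div b 2))

def mul4 (a b : ℕ) : ℕ := mk4 (Nat.add (Nat.mul a b) (Nat.mul (Nat.div a 2) (Nat.div b 2)))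
  (Nat.add (Nat.add (Nat.mul a (Nat.div b 2)) (Nat.mul (Nat.div a 2) b)) (Nat.mul (Nat.div a 2) (Nat.div b 2)))

noncomputable def pow4 (a k : ℕ) : ℕ := Nat.rec 1 (fun _ ih => mul4 ih a) k

/-- Words. -/
abbrev W4 : Type := List (ℕ × ℕ)

/-- Insert a letter on the left of a sorted word. -/
noncomputable def ins4 (T : Fast) (key : ℕ → ℕ) (n : ℕ) : ℕ → ℕ → W4 → W4 :=
  Nat.rec (fun r t w => (r, t) :: w) (fun _ ih r t w => (Nat.beq t 0).rec
    (List.rec [(r, t)] (fun b tl _ => (Nat.beq r b.1).rec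
      ((bor (Nat.ble (key r) (key b.1)) (Nat.beq r (T.ng b.1))).rec
        (b :: ih r t (List.rec tl (fun c _ acc => fc c.1 [] fun s =>
          fc (mul4 (mk4 c.2.1.natAbs 0) (mul4 (pow4 b.2 c.2.2.1) (pow4 t c.2.2.2))) [] fun v => ih s v acc) (ctR T b.1 r)))
        ((r, t) :: b :: tl))
      (fc (add4 t b.2) [] fun v => (Nat.beq v 0).rec ((r, v) :: tl) tl)) w) w) n

/-- Collect a word. -/
noncomputable def col4 (T : Fast) (key : ℕ → ℕ) (w : W4) : W4 :=
  List.rec [] (fun c _ acc => fc c.1 [] fun r => fc c.2 [] fun t => ins4 T key 300 r t acc) w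

/-- Compare two words. -/
noncomputable def eq4 (T : Fast) (key : ℕ → ℕ) (w w' : W4) : Bool :=
  isNil (col4 T id (col4 T key (List.rec (fun acc => acc) (fun c _ ih acc => ih (c :: acc)) w w')))

/-- Substitute words for letters. -/
noncomputable def wd4 (L : List W4) (l : List ℕ) : W4 := List.rec [] (fun i _ ih => L.getD i [] ++ ih) l

variable {D : ChevalleyDatum} {K : Type*} [Field K] {G : Type*} [Group G]

/-- The value of a code. -/
def e4 (ω : K) (t : ℕ) : K := t + (t / 2 : ℕ) * ω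

/-- The value of a word. -/
def ev4 (x : ℕ → K → G) (ω : K) (w : W4) : G := (w.map fun a => x a.1 (e4 ω a.2)).prod

variable {ω : K} {x : ℕ → K → G}

@[simp] theorem ev4_nil : ev4 x ω [] = 1 := rfl

@[simp] theorem ev4_cons (a : ℕ × ℕ) (w : W4) : ev4 x ω (a :: w) = x a.1 (e4 ω a.2) * ev4 x ω w := by simp [ev4]

theorem ev4_append (w w' : W4) : ev4 x ω (w ++ w') = ev4 x ω w * ev4 x ω w' := by simp [ev4]

theorem ev4_mem {w : W4} {S : Set ℕ} (h : ∀ a ∈ w, a.1 ∈ S) : ev4 x ω w ∈ XS x S :=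
  list_prod_mem (List.forall_mem_map.2 fun a ha => x_mem_XS (h a ha) _)

theorem ev4_wd4 (L : List W4) (l : List ℕ) : ev4 x ω (wd4 L l) = L0.ev (fun i => ev4 x ω (L.getD i [])) l := by
  induction l with
  | nil => rfl
  | cons i l ih => rw [L0.ev_cons, ← ih, ← ev4_append]; rfl

theorem ev4_map {G' : Type*} [Group G'] {y : ℕ → K → G'} {φ : G →* G'} {f : ℕ × ℕ → ℕ × ℕ} {w : W4}
    (h : ∀ a ∈ w, φ (x a.1 (e4 ω a.2)) = y (f a).1 (e4 ω (f a).2)) : φ (ev4 x ω w) = ev4 y ω (w.map f) := by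
  simp only [ev4, map_list_prod, List.map_map]
  exact congrArg _ (List.map_congr_left h)

@[simp] theorem e4_zero : e4 ω 0 = 0 := by simp [e4]

@[simp] theorem e4_one : e4 ω 1 = 1 := by simp [e4]

variable [CharP K 2]

theorem e4_mk4 (p q : ℕ) : e4 ω (mk4 p q) = p + q * ω := by
  have h : ∀ n : ℕ, ((n % 2 : ℕ) : K) = n := fun n => (CharP.cast_eq_mod K 2 n).symm
  change ((p % 2 + 2 * (q % 2) : ℕ) : K) + ((p % 2 + 2 * (q % 2)) / 2 : ℕ) * ω = _
  rw [show (p % 2 + 2 * (q % 2)) / 2 = q % 2 by omega, ← h, show (p % 2 + 2 * (q % 2)) % 2 = p % 2 by omega, h, h]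

theorem e4_add4 (a b : ℕ) : e4 ω (add4 a b) = e4 ω a + e4 ω b := by
  rw [add4, e4_mk4]
  change ((a + b : ℕ) : K) + (a / 2 + b / 2 : ℕ) * ω = _
  simp only [e4]; push_cast; ring

variable (hω : ω ^ 2 = ω + 1)
include hω

theorem e4_mul4 (a b : ℕ) : e4 ω (mul4 a b) = e4 ω a * e4 ω b := by
  rw [mul4, e4_mk4]
  change ((a * b + a / 2 * (b / 2) : ℕ) : K) + (a * (b / 2) + a / 2 * b + a / 2 * (b / 2) : ℕ) * ω = _
  simp only [e4]; push_cast; linear_combination (-((a / 2 : ℕ) : K) * (b / 2 : ℕ)) * hω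

theorem e4_pow4 (a k : ℕ) : e4 ω (pow4 a k) = e4 ω a ^ k := by
  induction k with
  | zero => exact e4_one.trans (pow_zero _).symm
  | succ k ih => rw [pow_succ, ← ih, ← e4_mul4 hω]; rfl

variable [hD : RootFacts D] {T : Fast} (h : IsSt D x) (hT : Agree D T)
include h hT

theorem ev4_ins4 (key : ℕ → ℕ) (n r t : ℕ) (w : W4) : ev4 x ω (ins4 T key n r t w) = x r (e4 ω t) * ev4 x ω w := by
  induction n generalizing r t w with
  | zero => exact ev4_cons _ _
  | succ n ih =>
    have e : ins4 T key (n + 1) r t w = (Nat.beq t 0).rec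
      (List.rec [(r, t)] (fun b tl _ => (Nat.beq r b.1).rec
        ((bor (Nat.ble (key r) (key b.1)) (Nat.beq r (T.ng b.1))).rec
          (b :: ins4 T key n r t (List.rec tl (fun c _ acc => ins4 T key n c.1
            (mul4 (mk4 c.2.1.natAbs 0) (mul4 (pow4 b.2 c.2.2.1) (pow4 t c.2.2.2))) acc) (ctR T b.1 r)))
          ((r, t) :: b :: tl))
        ((Nat.beq (add4 t b.2) 0).rec ((r, add4 t b.2) :: tl) tl)) w) w := rfl
    rw [e]
    cases h0 : Nat.beq t 0 with
    | true => simp [nbeq_iff.1 h0, h.zero]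
    | false =>
      rcases w with _ | ⟨b, tl⟩
      · simp
      simp only
      cases h1 : Nat.beq r b.1 with
      | true =>
        rw [ev4_cons, ← nbeq_iff.1 h1, ← mul_assoc, ← h.add, ← e4_add4]
        cases h2 : Nat.beq (add4 t b.2) 0
        · simp
        · simp [nbeq_iff.1 h2, h.zero]
      | false =>
        simp only
        cases h2 : bor (Nat.ble (key r) (key b.1)) (Nat.beq r (T.ng b.1)) with
        | true => simp
        | false =>
          simp only
          have h5 : ∀ l : List (ℕ × ℤ × ℕ × ℕ), ev4 x ω (List.rec tl (fun c _ acc => ins4 T key n c.1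
              (mul4 (mk4 c.2.1.natAbs 0) (mul4 (pow4 b.2 c.2.2.1) (pow4 t c.2.2.2))) acc) l) = ev x (l.map fun c =>
                (c.1, (c.2.1 : K) * (-e4 ω b.2) ^ c.2.2.1 * e4 ω t ^ c.2.2.2)) * ev4 x ω tl := fun l => by
            induction l with
            | nil => simp
            | cons c l ihl =>
              simp only [ih, ihl, List.map_cons, ev_cons, mul_assoc, e4_mul4 hω, e4_pow4 hω, e4_mk4, CharTwo.neg_eq]
              obtain e | e := c.2.1.natAbs_eq <;> rw [e] <;> simp [CharTwo.neg_eq]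
          rw [ev4_cons, ih, h5, ctR_eq hT, ev4_cons, ← mul_assoc, ← mul_assoc, ← mul_assoc]
          rw [← Bool.not_eq_true, nbeq_iff] at h1
          rw [← Bool.not_eq_true, bor_iff, nbeq_iff, not_or] at h2
          by_cases hb : b.1 < D.nroots
          · rw [(h.comm' h1 (by rw [hT.neg _ hb]; exact h2.2)).swap]; rfl
          · have : D.commTerms b.1 r = [] := List.eq_nil_iff_forall_not_mem.2 fun c hc => hb (commTerms_spec hc).1
            simp [this, h.out _ (not_lt.1 hb)]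

theorem ev4_col4 (key : ℕ → ℕ) (w : W4) : ev4 x ω (col4 T key w) = ev4 x ω w := by
  induction w with
  | nil => rfl
  | cons c w ih => rw [ev4_cons, ← ih, ← ev4_ins4 hω h hT key 300]; rfl

theorem eq_of_eq4 {key : ℕ → ℕ} {w w' : W4} (e : eq4 T key w w' = true) : ev4 x ω w = ev4 x ω w' := by
  have h1 : ∀ w', ev4 x ω (List.rec (motive := fun _ => W4 → W4) (fun acc => acc) (fun c _ ih acc => ih (c :: acc)) w w') =
      (ev4 x ω w)⁻¹ * ev4 x ω w' := by
    clear e
    induction w with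
    | nil => simp
    | cons c w ih => intro w'; simp only [ih, ev4_cons, _root_.mul_inv_rev, ← h.neg, CharTwo.neg_eq, mul_assoc]
  rw [← inv_mul_eq_one, ← h1, ← ev4_col4 hω h hT key, ← ev4_col4 hω h hT id, isNil_iff.1 e, ev4_nil]

end Cfsg.Agent.H8
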